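import Cfsg.Agent.Lib.Char.OddOrder

/-!
# The Frobenius–Schur indicator, via the operators `B ↦ A B Aᵀ` on matrices.
-/

set_option autoImplicit false
set_option linter.unusedSectionVars false
set_option linter.style.haveILetI false
set_option linter.unusedSimpArgs false
set_option linter.unnecessarySimpa false

open scoped ComplexConjugate
open Module

namespace Cfsg.Agent.Lib.Char

open Cfsg (classInner IsCharacter IsIrrCharacter IrrCharacter IsClassFunction indFun
  extendByZero charDegree IsGeneralizedCharacter)

section MatrixOps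

variable {n : Type*} [Fintype n] [DecidableEq n]

theorem trace_matrix_op (L : Module.End ℂ (Matrix n n ℂ)) :
    LinearMap.trace ℂ _ L = ∑ i, ∑ j, L (Matrix.single i j 1) i j := by
  rw [LinearMap.trace_eq_matrix_trace ℂ (Matrix.stdBasis ℂ n n) L]
  rw [Matrix.trace, Fintype.sum_prod_type]
  refine Finset.sum_congr rfl fun i _ => Finset.sum_congr rfl fun j _ => ?_
  simp only [Matrix.diag_apply, LinearMap.toMatrix_apply, Matrix.stdBasis_eq_single]
  have : ∀ M : Matrix n n ℂ, (Matrix.stdBasis ℂ n n).repr M (i, j) = M i j := by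
    intro M
    simp [Matrix.stdBasis]
  exact this _

theorem mul_single_mul_apply (A B : Matrix n n ℂ) (i j k l : n) :
    (A * Matrix.single i j (1 : ℂ) * B) k l = A k i * B j l := by
  simp only [Matrix.mul_apply, Matrix.single_apply, Finset.sum_mul, ite_mul, mul_ite, ite_and]
  rw [Finset.sum_eq_single j, Finset.sum_eq_single i]
  · simp
  · intro b _ hb
    simp [Ne.symm hb]
  · simp
  · intro b _ hb
    refine Finset.sum_eq_zero fun x _ => ?_
    simp [Ne.symm hb]
  · simp

/-- `B ↦ A B Aᵀ`. -/
def sandwich (A : Matrix n n ℂ) : Module.End ℂ (Matrix n n ℂ) where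
  toFun B := A * B * A.transpose
  map_add' := by
    intro x y
    simp [Matrix.mul_add, Matrix.add_mul]
  map_smul' := by
    intro c x
    simp [Matrix.mul_smul, Matrix.smul_mul]

/-- The transpose as a linear operator. -/
def transposeEnd : Module.End ℂ (Matrix n n ℂ) where
  toFun B := B.transpose
  map_add' := by
    intro x y
    simp
  map_smul' := by
    intro c x
    simp

@[simp] theorem sandwich_apply (A B : Matrix n n ℂ) : sandwich A B = A * B * A.transpose := rfl

@[simp] theorem transposeEnd_apply (B : Matrix n n ℂ) : transposeEnd B = B.transpose := rfl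

theorem trace_sandwich (A : Matrix n n ℂ) :
    LinearMap.trace ℂ _ (sandwich A) = A.trace ^ 2 := by
  rw [trace_matrix_op]
  simp only [sandwich_apply, mul_single_mul_apply, Matrix.transpose_apply]
  rw [sq, Matrix.trace, Finset.sum_mul_sum]
  rfl

theorem trace_transposeEnd_sandwich (A : Matrix n n ℂ) :
    LinearMap.trace ℂ _ (transposeEnd * sandwich A) = (A * A).trace := by
  rw [trace_matrix_op]
  simp only [Module.End.mul_apply, sandwich_apply, transposeEnd_apply, Matrix.transpose_apply,
    mul_single_mul_apply]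
  rw [Matrix.trace]
  refine Finset.sum_congr rfl fun i _ => ?_
  simp only [Matrix.diag_apply, Matrix.mul_apply]
  refine Finset.sum_congr rfl fun j _ => ?_
  ring

theorem sandwich_mul (A A' : Matrix n n ℂ) :
    sandwich A * sandwich A' = sandwich (A * A') := by
  ext1 B
  simp only [Module.End.mul_apply, sandwich_apply, Matrix.transpose_mul, Matrix.mul_assoc]

theorem transposeEnd_sandwich (A : Matrix n n ℂ) :
    transposeEnd * sandwich A = sandwich A * transposeEnd := by
  ext1 B
  simp [Module.End.mul_apply, Matrix.transpose_mul, Matrix.mul_assoc]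

theorem transposeEnd_mul_self : (transposeEnd * transposeEnd : Module.End ℂ (Matrix n n ℂ)) = 1 := by
  ext1 B
  simp [Module.End.mul_apply]

end MatrixOps

section Rep

universe u

variable {G : Type u} [Group G] [Fintype G] {k : ℕ} (ρ : Representation ℂ G (Fin k → ℂ))

/-- The matrix of `ρ g`. -/
noncomputable def repMat (g : G) : Matrix (Fin k) (Fin k) ℂ := LinearMap.toMatrix' (ρ g)

theorem repMat_mul (g h : G) : repMat ρ (g * h) = repMat ρ g * repMat ρ h := by
  simp only [repMat, map_mul]
  exact LinearMap.toMatrix'_mul _ _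

theorem repMat_one : repMat ρ 1 = 1 := by
  simp only [repMat, map_one]
  exact LinearMap.toMatrix'_one

theorem trace_repMat (g : G) : (repMat ρ g).trace = ρ.character g := by
  rw [Representation.character, repMat, ← Matrix.trace_toLin'_eq, Matrix.toLin'_toMatrix']

theorem mulVec_repMat (g : G) (v : Fin k → ℂ) : (repMat ρ g).mulVec v = ρ g v :=
  LinearMap.toMatrix'_mulVec _ _

/-- Averaging `B ↦ A_g B A_gᵀ` over the group. -/
noncomputable def fsProj : Module.End ℂ (Matrix (Fin k) (Fin k) ℂ) :=
  (Nat.card G : ℂ)⁻¹ • ∑ g : G, sandwich (repMat ρ g)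

theorem sandwich_mul_fsProj (h : G) : sandwich (repMat ρ h) * fsProj ρ = fsProj ρ := by
  simp only [fsProj, mul_smul_comm, Finset.mul_sum, sandwich_mul, ← repMat_mul]
  congr 1
  exact Equiv.sum_comp (Equiv.mulLeft h) (fun g => sandwich (repMat ρ g))

theorem fsProj_idem : IsIdempotentElem (fsProj ρ) := by
  have hne : (Nat.card G : ℂ) ≠ 0 := by exact_mod_cast Nat.card_pos.ne'
  unfold IsIdempotentElem
  conv_lhs => enter [1]; rw [fsProj]
  rw [smul_mul_assoc, Finset.sum_mul]
  simp only [sandwich_mul_fsProj, Finset.sum_const, Finset.card_univ, ← Nat.card_eq_fintype_card]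
  rw [← Nat.cast_smul_eq_nsmul ℂ, smul_smul, inv_mul_cancel₀ hne, one_smul]

theorem transposeEnd_fsProj : transposeEnd * fsProj ρ = fsProj ρ * transposeEnd := by
  simp only [fsProj, mul_smul_comm, smul_mul_assoc]
  rw [Finset.mul_sum, Finset.sum_mul]
  simp only [transposeEnd_sandwich]

theorem trace_fsProj : LinearMap.trace ℂ _ (fsProj ρ) =
    (Nat.card G : ℂ)⁻¹ * ∑ g : G, ρ.character g ^ 2 := by
  simp only [fsProj, map_smul, map_sum, trace_sandwich, trace_repMat, smul_eq_mul]

theorem trace_transposeEnd_fsProj : LinearMap.trace ℂ _ (transposeEnd * fsProj ρ) =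
    (Nat.card G : ℂ)⁻¹ * ∑ g : G, ρ.character (g * g) := by
  simp only [fsProj, mul_smul_comm, Finset.mul_sum, map_smul, map_sum, trace_transposeEnd_sandwich,
    ← repMat_mul, trace_repMat, smul_eq_mul]

theorem fsProj_apply_invariant (X : Matrix (Fin k) (Fin k) ℂ) (g : G) :
    repMat ρ g * fsProj ρ X * (repMat ρ g).transpose = fsProj ρ X := by
  have := congrArg (fun L : Module.End ℂ (Matrix (Fin k) (Fin k) ℂ) => L X) (sandwich_mul_fsProj ρ g)
  simpa only [Module.End.mul_apply, sandwich_apply] using this

/-- Frobenius–Schur for an irreducible representation: if the character is not real, the indicator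
vanishes; if it is real, the indicator is a sign `c`, and there is a non-zero invariant matrix `B`
with `Bᵀ = c B`. -/
theorem frobenius_schur (hρ : ρ.IsIrreducible) :
    ((∃ s, (ρ.character s).im ≠ 0) → (Nat.card G : ℂ)⁻¹ * ∑ s : G, ρ.character (s * s) = 0) ∧
    ((∀ s, (ρ.character s).im = 0) → ∃ c : ℂ, (c = 1 ∨ c = -1) ∧
      (Nat.card G : ℂ)⁻¹ * ∑ s : G, ρ.character (s * s) = c ∧
      ∃ B : Matrix (Fin k) (Fin k) ℂ, B ≠ 0 ∧ (∀ g, repMat ρ g * B * (repMat ρ g).transpose = B) ∧
        B.transpose = c • B) := by
  classical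
  have hirr := isIrrCharacter_character ρ hρ
  have hconj : IsIrrCharacter G (fun g => conj (ρ.character g)) := isIrr_conj hirr
  have htr : LinearMap.trace ℂ _ (fsProj ρ) = classInner ρ.character (fun g => conj (ρ.character g)) := by
    rw [trace_fsProj, classInner_def]
    simp only [Complex.conj_conj, sq]
  have hproj := LinearMap.IsIdempotentElem.isProj_range _ (fsProj_idem ρ)
  have hdim := hproj.trace
  constructor
  · rintro ⟨s, hs⟩
    rw [← trace_transposeEnd_fsProj]
    have hne : ρ.character ≠ fun g => conj (ρ.character g) := by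
      intro h
      apply hs
      have h1 := congrFun h s
      have h2 := Complex.conj_eq_iff_im.mp h1.symm
      exact h2
    have h0 := classInner_irr_of_ne hirr hconj hne
    rw [h0] at htr
    rw [htr] at hdim
    have h3 : finrank ℂ (LinearMap.range (fsProj ρ)) = 0 := by exact_mod_cast hdim.symm
    have h4 : LinearMap.range (fsProj ρ) = ⊥ := Submodule.finrank_eq_zero.mp h3
    have h5 : fsProj ρ = 0 := LinearMap.range_eq_bot.mp h4
    rw [h5]
    simp
  · intro hreal
    have heq : ρ.character = fun g => conj (ρ.character g) := by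
      funext g
      exact (Complex.conj_eq_iff_im.mpr (hreal g)).symm
    have h1 : classInner ρ.character (fun g => conj (ρ.character g)) = 1 := by
      rw [← heq]
      exact classInner_irr_self hirr
    rw [h1] at htr
    rw [htr] at hdim
    have h3 : finrank ℂ (LinearMap.range (fsProj ρ)) = 1 := by exact_mod_cast hdim.symm
    obtain ⟨⟨v, hvm⟩, hv0, hv⟩ := finrank_eq_one_iff'.mp h3
    have hv0' : v ≠ 0 := fun h => hv0 (Subtype.ext h)
    obtain ⟨X, rfl⟩ := hvm
    set B := fsProj ρ X with hB
    have htB : transposeEnd B ∈ LinearMap.range (fsProj ρ) := by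
      refine ⟨transposeEnd X, ?_⟩
      have := congrArg (fun L : Module.End ℂ (Matrix (Fin k) (Fin k) ℂ) => L X) (transposeEnd_fsProj ρ)
      simp only [Module.End.mul_apply] at this
      rw [← this]
    obtain ⟨c, hc⟩ := hv ⟨_, htB⟩
    have hc' : c • B = transposeEnd B := congrArg Subtype.val hc
    have hB0 : B ≠ 0 := hv0'
    have hcc : c * c = 1 := by
      have h7 : transposeEnd (c • B) = c • transposeEnd B := map_smul _ _ _
      rw [hc'] at h7
      have h8 : transposeEnd (transposeEnd B) = B := by simp
      rw [h8, ← hc', smul_smul] at h7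
      have h9 : (c * c) • B = (1 : ℂ) • B := by rw [← h7, one_smul]
      exact smul_left_injective ℂ hB0 h9
    have hc1 : c = 1 ∨ c = -1 := mul_self_eq_one_iff.mp hcc
    have hmul : transposeEnd * fsProj ρ = c • fsProj ρ := by
      ext1 Y
      obtain ⟨a, ha⟩ := hv ⟨fsProj ρ Y, ⟨Y, rfl⟩⟩
      have ha' : a • B = fsProj ρ Y := congrArg Subtype.val ha
      simp only [Module.End.mul_apply, LinearMap.smul_apply]
      rw [← ha', map_smul, ← hc', smul_comm]
    refine ⟨c, hc1, ?_, B, hB0, fun g => fsProj_apply_invariant ρ X g, ?_⟩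
    · rw [← trace_transposeEnd_fsProj, hmul, map_smul, htr, smul_eq_mul, mul_one]
    · exact hc'.symm

end Rep

end Cfsg.Agent.Lib.Char
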