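import Cfsg.Agent.Lib.Char.FrobSchur

/-!
# The symmetric and the alternating square of a character
-/

set_option autoImplicit false
set_option linter.unusedSectionVars false
set_option linter.style.haveILetI false
set_option linter.unusedSimpArgs false
set_option linter.unnecessarySimpa false
set_option linter.unusedVariables false

open Module

namespace Cfsg.Agent.Lib.Char

open Cfsg (IsCharacter)

section Squares

universe u

variable {G : Type u} [Group G] [Fintype G] {k : ℕ}

/-- The matrices `B` with `Bᵀ = c B`. -/
def matC (k : ℕ) (c : ℂ) : Submodule ℂ (Matrix (Fin k) (Fin k) ℂ) where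
  carrier := {B | B.transpose = c • B}
  add_mem' := by
    intro a b ha hb
    simp only [Set.mem_setOf_eq] at ha hb ⊢
    rw [Matrix.transpose_add, ha, hb, smul_add]
  zero_mem' := by simp
  smul_mem' := by
    intro d a ha
    simp only [Set.mem_setOf_eq] at ha ⊢
    rw [Matrix.transpose_smul, ha, smul_comm]

theorem mem_matC {c : ℂ} {B : Matrix (Fin k) (Fin k) ℂ} : B ∈ matC k c ↔ B.transpose = c • B := Iff.rfl

theorem sandwich_maps (c : ℂ) (A : Matrix (Fin k) (Fin k) ℂ) :
    Set.MapsTo (sandwich A) (matC k c : Set (Matrix (Fin k) (Fin k) ℂ)) (matC k c) := by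
  intro B hB
  have hB' : B.transpose = c • B := hB
  change (A * B * A.transpose).transpose = c • (A * B * A.transpose)
  rw [Matrix.transpose_mul, Matrix.transpose_mul, Matrix.transpose_transpose, hB']
  simp [Matrix.mul_smul, Matrix.smul_mul, Matrix.mul_assoc]

/-- The representation on the eigenspaces of the transposition. -/
noncomputable def repC (ρ : Representation ℂ G (Fin k → ℂ)) (c : ℂ) : Representation ℂ G (matC k c) where
  toFun g := (sandwich (repMat ρ g)).restrict (sandwich_maps c _)
  map_one' := by
    apply LinearMap.ext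
    rintro ⟨B, hB⟩
    apply Subtype.ext
    simp [repMat_one]
  map_mul' := by
    intro a b
    apply LinearMap.ext
    rintro ⟨B, hB⟩
    apply Subtype.ext
    change repMat ρ (a * b) * B * (repMat ρ (a * b)).transpose =
      repMat ρ a * (repMat ρ b * B * (repMat ρ b).transpose) * (repMat ρ a).transpose
    rw [repMat_mul, Matrix.transpose_mul]
    simp only [Matrix.mul_assoc]

theorem isCompl_matC : IsCompl (matC k 1) (matC k (-1)) := by
  constructor
  · rw [Submodule.disjoint_def]
    intro B h1 h2
    have h1' : B.transpose = (1 : ℂ) • B := h1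
    have h2' : B.transpose = (-1 : ℂ) • B := h2
    rw [h1', one_smul] at h2'
    have h3 : (2 : ℂ) • B = 0 := by
      rw [two_smul]
      nth_rewrite 1 [h2']
      simp
    exact (smul_eq_zero.mp h3).resolve_left (by norm_num)
  · rw [codisjoint_iff, eq_top_iff]
    intro B _
    have e : B = (2 : ℂ)⁻¹ • (B + B.transpose) + (2 : ℂ)⁻¹ • (B - B.transpose) := by
      rw [← smul_add]
      have : B + B.transpose + (B - B.transpose) = (2 : ℂ) • B := by
        rw [two_smul]
        abel
      rw [this, smul_smul, inv_mul_cancel₀ (by norm_num), one_smul]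
    rw [e]
    refine Submodule.add_mem_sup ?_ ?_
    · refine Submodule.smul_mem _ _ ?_
      change (B + B.transpose).transpose = (1 : ℂ) • (B + B.transpose)
      rw [Matrix.transpose_add, Matrix.transpose_transpose, one_smul, add_comm]
    · refine Submodule.smul_mem _ _ ?_
      change (B - B.transpose).transpose = (-1 : ℂ) • (B - B.transpose)
      rw [Matrix.transpose_sub, Matrix.transpose_transpose]
      simp

/-- The two eigenspaces, indexed by `Bool`. -/
def matN (k : ℕ) : Bool → Submodule ℂ (Matrix (Fin k) (Fin k) ℂ) := fun b => cond b (matC k 1) (matC k (-1))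

theorem isInternal_matN : DirectSum.IsInternal (matN k) := by
  rw [DirectSum.isInternal_submodule_iff_isCompl (matN k) (i := true) (j := false) (by decide) (by
    ext b
    cases b <;> simp)]
  exact isCompl_matC

theorem trace_repC_add (ρ : Representation ℂ G (Fin k → ℂ)) (g : G) :
    LinearMap.trace ℂ _ (repC ρ 1 g) + LinearMap.trace ℂ _ (repC ρ (-1) g) = ρ.character g ^ 2 := by
  have hf : ∀ i, Set.MapsTo (sandwich (repMat ρ g)) (matN k i : Set (Matrix (Fin k) (Fin k) ℂ)) (matN k i) := by
    intro i
    cases i
    · exact sandwich_maps _ _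
    · exact sandwich_maps _ _
  have h := LinearMap.trace_eq_sum_trace_restrict isInternal_matN hf
  rw [trace_sandwich, trace_repMat, Fintype.sum_bool] at h
  rw [h]
  rfl

theorem trace_repC_sub (ρ : Representation ℂ G (Fin k → ℂ)) (g : G) :
    LinearMap.trace ℂ _ (repC ρ 1 g) - LinearMap.trace ℂ _ (repC ρ (-1) g) = ρ.character (g * g) := by
  obtain ⟨L, hL⟩ : ∃ L : Module.End ℂ (Matrix (Fin k) (Fin k) ℂ), L = transposeEnd * sandwich (repMat ρ g) := ⟨_, rfl⟩
  have hc : ∀ (c : ℂ) (B : Matrix (Fin k) (Fin k) ℂ), B ∈ matC k c →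
      L B = c • sandwich (repMat ρ g) B := by
    intro c B hB
    rw [hL]
    exact sandwich_maps c (repMat ρ g) hB
  have hf : ∀ i, Set.MapsTo L (matN k i : Set (Matrix (Fin k) (Fin k) ℂ)) (matN k i) := by
    intro i B hB
    cases i
    · have hB' : B ∈ matC k (-1) := hB
      have : L B = (-1 : ℂ) • sandwich (repMat ρ g) B := hc _ B hB'
      rw [this]
      exact Submodule.smul_mem _ _ (sandwich_maps _ _ hB')
    · have hB' : B ∈ matC k 1 := hB
      have : L B = (1 : ℂ) • sandwich (repMat ρ g) B := hc _ B hB'
      rw [this]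
      exact Submodule.smul_mem _ _ (sandwich_maps _ _ hB')
  have h := LinearMap.trace_eq_sum_trace_restrict isInternal_matN hf
  have hLt : LinearMap.trace ℂ _ L = ρ.character (g * g) := by
    rw [hL, trace_transposeEnd_sandwich, ← repMat_mul, trace_repMat]
  rw [hLt, Fintype.sum_bool] at h
  have e1 : (L.restrict (hf true) : Module.End ℂ (matC k 1)) = repC ρ 1 g := by
    apply LinearMap.ext
    rintro ⟨B, hB⟩
    apply Subtype.ext
    have : L B = (1 : ℂ) • sandwich (repMat ρ g) B := hc _ B hB
    change L B = sandwich (repMat ρ g) B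
    rw [this, one_smul]
  have e2 : (L.restrict (hf false) : Module.End ℂ (matC k (-1))) = (-1 : ℂ) • repC ρ (-1) g := by
    apply LinearMap.ext
    rintro ⟨B, hB⟩
    apply Subtype.ext
    have : L B = (-1 : ℂ) • sandwich (repMat ρ g) B := hc _ B hB
    change L B = (-1 : ℂ) • sandwich (repMat ρ g) B
    exact this
  have t1 : LinearMap.trace ℂ (matN k true) (L.restrict (hf true)) = LinearMap.trace ℂ (matC k 1) (repC ρ 1 g) :=
    congrArg (LinearMap.trace ℂ (matC k 1)) e1
  have t2 : LinearMap.trace ℂ (matN k false) (L.restrict (hf false)) = - LinearMap.trace ℂ (matC k (-1)) (repC ρ (-1) g) := by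
    have h3 := congrArg (LinearMap.trace ℂ (matC k (-1))) e2
    rw [map_smul, smul_eq_mul, neg_one_mul] at h3
    exact h3
  rw [h, t1, t2, sub_eq_add_neg]

/-- The symmetric square of a character is a character. -/
theorem isCharacter_symSq {χ : G → ℂ} (hχ : IsCharacter G χ) :
    IsCharacter G (fun g => (χ g ^ 2 + χ (g * g)) / 2) := by
  obtain ⟨n, ρ, rfl⟩ := hχ
  have h := isCharacter_character (repC ρ 1)
  convert h using 1
  funext g
  rw [← trace_repC_add, ← trace_repC_sub]
  simp only [Representation.character]
  ring

/-- The alternating square of a character is a character. -/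
theorem isCharacter_altSq {χ : G → ℂ} (hχ : IsCharacter G χ) :
    IsCharacter G (fun g => (χ g ^ 2 - χ (g * g)) / 2) := by
  obtain ⟨n, ρ, rfl⟩ := hχ
  have h := isCharacter_character (repC ρ (-1))
  convert h using 1
  funext g
  rw [← trace_repC_add, ← trace_repC_sub]
  simp only [Representation.character]
  ring

end Squares

end Cfsg.Agent.Lib.Char
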