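import Cfsg.Agent.Lib.Char.Brauer

/-!
# Artin's induction theorem.
-/

set_option autoImplicit false
set_option linter.unusedSectionVars false
set_option linter.style.haveILetI false
set_option linter.unusedSimpArgs false
set_option linter.unnecessarySimpa false

open scoped ComplexConjugate
open Module

namespace Cfsg.Agent.Lib.Char

open Cfsg (classInner IsCharacter IsIrrCharacter IrrCharacter IsClassFunction indFun
  extendByZero charDegree IsElementary IsGeneralizedCharacter)

universe u

open Classical in
/-- `θ_C`: the group order on generators, zero elsewhere. -/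
noncomputable def artinTheta (C : Type u) [Group C] : C → ℂ :=
  fun a => if Subgroup.zpowers a = ⊤ then (Nat.card C : ℂ) else 0

section

variable {G : Type u} [Group G] [Fintype G]

theorem zpowers_eq_iff (A : Subgroup G) (y : A) :
    Subgroup.zpowers y = ⊤ ↔ Subgroup.zpowers (y : G) = A := by
  have h1 : (Subgroup.zpowers y).map A.subtype = Subgroup.zpowers (y : G) := by
    rw [MonoidHom.map_zpowers]
    rfl
  have h2 : (⊤ : Subgroup A).map A.subtype = A := by
    rw [← MonoidHom.range_eq_map, Subgroup.range_subtype]
  constructor
  · intro h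
    rw [← h1, h, h2]
  · intro h
    apply Subgroup.map_injective A.subtype_injective
    rw [h1, h2, h]

open Classical in
theorem extendByZero_artinTheta (A : Subgroup G) (y : G) :
    extendByZero A (artinTheta A) y = if Subgroup.zpowers y = A then (Nat.card A : ℂ) else 0 := by
  by_cases hy : y ∈ A
  · rw [extendByZero_of_mem A _ hy]
    simp only [artinTheta]
    have := zpowers_eq_iff A ⟨y, hy⟩
    simp only [this]
  · rw [extendByZero_of_not_mem A _ hy, if_neg]
    rintro rfl
    exact hy (Subgroup.mem_zpowers y)

open Classical in
theorem indFun_artinTheta (A : Subgroup G) (g : G) :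
    indFun A (artinTheta A) g =
      ((Finset.univ.filter fun x : G => Subgroup.zpowers (x⁻¹ * g * x) = A).card : ℂ) := by
  rw [indFun_apply]
  simp only [extendByZero_artinTheta]
  rw [← Finset.sum_filter, Finset.sum_const, nsmul_eq_mul]
  have hne : (Nat.card A : ℂ) ≠ 0 := by exact_mod_cast Nat.card_pos.ne'
  field_simp

/-- `∑_A Ind_A θ_A = |G|`. -/
theorem sum_indFun_artinTheta [Fintype (Subgroup G)] (g : G) :
    ∑ A : Subgroup G, indFun A (artinTheta A) g = (Nat.card G : ℂ) := by
  classical
  simp only [indFun_artinTheta]
  rw [← Nat.cast_sum]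
  congr 1
  simp only [Finset.card_filter]
  rw [Finset.sum_comm]
  rw [Nat.card_eq_fintype_card, ← Finset.card_univ, Finset.card_eq_sum_ones]
  refine Finset.sum_congr rfl fun x _ => ?_
  rw [Finset.sum_ite_eq]
  simp

end

/-- `θ_C` is a generalized character. -/
theorem artinTheta_isGeneralized : ∀ (n : ℕ) (C : Type u) [Group C] [Finite C], Nat.card C = n →
    IsGeneralizedCharacter C (artinTheta C) := by
  classical
  intro n
  induction n using Nat.strong_induction_on with
  | _ n ih =>
    intro C _ _ hn
    haveI := Fintype.ofFinite C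
    haveI : Fintype (Subgroup C) := Fintype.ofFinite _
    by_cases hc : ∃ a : C, Subgroup.zpowers a = ⊤
    · obtain ⟨a, ha⟩ := hc
      have hcyc : IsCyclic C := ⟨a, fun x => by
        have : x ∈ Subgroup.zpowers a := by rw [ha]; trivial
        exact this⟩
      letI := hcyc.commGroup
      have hmain : artinTheta C = indFun (⊤ : Subgroup C) (artinTheta (⊤ : Subgroup C)) := by
        funext g
        rw [indFun_artinTheta]
        have h1 : ∀ x : C, x⁻¹ * g * x = g := fun x => by
          rw [mul_comm x⁻¹, mul_assoc, inv_mul_cancel, mul_one]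
        simp only [h1]
        by_cases hg : Subgroup.zpowers g = ⊤
        · simp [artinTheta, hg, Finset.card_univ]
        · simp [artinTheta, hg]
      have hsum : artinTheta C = (fun _ => (Nat.card C : ℂ)) -
          ∑ A ∈ Finset.univ.erase (⊤ : Subgroup C), indFun A (artinTheta A) := by
        funext g
        have h2 := sum_indFun_artinTheta (G := C) g
        rw [← Finset.add_sum_erase _ _ (Finset.mem_univ (⊤ : Subgroup C)),
          ← congrFun hmain g] at h2
        simp only [Pi.sub_apply, Finset.sum_apply]
        rw [← h2]
        ring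
      rw [hsum]
      refine IsGeneralizedCharacter.sub (IsGeneralizedCharacter.of_isCharacter
        (IsCharacter.const_natCast _)) (IsGeneralizedCharacter.sum _ fun A hA => ?_)
      refine indFun_isGeneralized A (ih (Nat.card A) ?_ A rfl)
      rw [← hn]
      have hA' : A ≠ ⊤ := Finset.ne_of_mem_erase hA
      have : Nat.card A < Nat.card C := by
        have h3 := Subgroup.card_le_card_group A
        refine lt_of_le_of_ne h3 fun h4 => hA' ?_
        exact Subgroup.eq_top_of_card_eq A h4
      exact this
    · have h0 : artinTheta C = 0 := by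
        funext g
        have : Subgroup.zpowers g ≠ ⊤ := fun h => hc ⟨g, h⟩
        simp [artinTheta, this]
      rw [h0]
      exact IsGeneralizedCharacter.zero

/-- The pairs allowed in Artin's theorem. -/
def ArtinPair {G : Type u} [Group G] (E : Subgroup G) (φ : E → ℂ) : Prop :=
  IsCyclic E ∧ ∃ lam : E →* ℂˣ, φ = fun a => (lam a : ℂ)

theorem artin_indSpan {G : Type u} [Group G] [Fintype G] (χ : G → ℂ) (hχ : IsCharacter G χ) :
    IndSpan ArtinPair ((Nat.card G : ℂ) • χ) := by
  classical
  haveI : Fintype (Subgroup G) := Fintype.ofFinite _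
  have hcl := IsCharacter.isClassFunction hχ
  have h1 : (Nat.card G : ℂ) • χ = ∑ A : Subgroup G, indFun A (artinTheta A * fun k : A => χ k) := by
    funext g
    have h2 := sum_indFun_artinTheta (G := G) g
    simp only [Pi.smul_apply, Finset.sum_apply, smul_eq_mul]
    rw [← h2, Finset.sum_mul]
    refine Finset.sum_congr rfl fun A _ => ?_
    rw [← indFun_mul_class A _ χ hcl]
    rfl
  rw [h1]
  refine IndSpan.sum _ _ fun A _ => ?_
  by_cases hc : IsCyclic A
  · have hgen : IsGeneralizedCharacter A (artinTheta A * fun k : A => χ k) :=
      IsGeneralizedCharacter.mul (artinTheta_isGeneralized _ A rfl)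
        (IsGeneralizedCharacter.of_isCharacter (IsCharacter.restrict A hχ))
    haveI : Fintype A := Fintype.ofFinite _
    obtain ⟨c, hc'⟩ := generalized_eq_sum hgen
    rw [hc', indFun_sum]
    refine IndSpan.sum _ _ fun ν _ => ?_
    rw [indFun_smul]
    refine IndSpan.zsmul _ (IndSpan.gen ⟨hc, ?_⟩)
    letI := hc.commGroup
    have hone := charDegree_eq_one_of_comm (fun a b => mul_comm a b) ν.2
    obtain ⟨lam, hlam⟩ := exists_hom_of_character_one (IsIrrCharacter.isCharacter ν.2) hone
    exact ⟨lam, hlam⟩
  · have h0 : artinTheta A = 0 := by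
      funext g
      have : Subgroup.zpowers g ≠ ⊤ := fun h =>
        hc ⟨g, fun x => by
          have : x ∈ Subgroup.zpowers g := by rw [h]; trivial
          exact this⟩
      simp [artinTheta, this]
    rw [h0, zero_mul, indFun_zero]
    exact IndSpan.zero

end Cfsg.Agent.Lib.Char
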