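import Cfsg.Agent.Lib.Degree.CodPrime
import Cfsg.Agent.Lib.ClassSizes.Basic

/-!
# Elementary structure of a Frobenius group `K ⋊ H`, from fixed-point-freeness.
-/

set_option autoImplicit false
set_option linter.unusedSectionVars false
set_option linter.style.haveILetI false
set_option linter.unusedSimpArgs false
set_option linter.unnecessarySimpa false

open scoped Pointwise

namespace Cfsg.Agent.Lib.Char

universe u

variable {G : Type u} [Group G] [Finite G] {K H : Subgroup G} [hK : K.Normal]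

theorem frob_complement (hKH : K ⊓ H = ⊥) (hKH' : K ⊔ H = ⊤) : Subgroup.IsComplement' K H := by
  refine Subgroup.isComplement'_of_disjoint_and_mul_eq_univ ?_ ?_
  · rw [disjoint_iff]
    exact hKH
  · rw [← Subgroup.normal_mul, hKH']
    rfl

theorem frob_data (hKH : K ⊓ H = ⊥) (hKH' : K ⊔ H = ⊤)
    (hfpf : ∀ h ∈ H, h ≠ 1 → ∀ k ∈ K, h * k = k * h → k = 1) :
    (∀ g : G, g ∉ H → H ⊓ (MulAut.conj g • H) = ⊥) ∧ Cfsg.frobeniusKernel H = (K : Set G) :=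
  Cfsg.Agent.Lib.Degree.frobenius_of_fixedPointFree K H (frob_complement hKH hKH') (by
    intro h hh h1 u hu huh
    refine hfpf h hh h1 u hu ?_
    exact mul_inv_eq_iff_eq_mul.mp huh)

theorem frob_exists_conj (hKH : K ⊓ H = ⊥) (hKH' : K ⊔ H = ⊤)
    (hfpf : ∀ h ∈ H, h ≠ 1 → ∀ k ∈ K, h * k = k * h → k = 1) {x : G} (hx : x ∉ K) :
    ∃ t : G, t⁻¹ * x * t ∈ H := by
  have h1 := (frob_data hKH hKH' hfpf).2
  have h2 : x ∉ Cfsg.frobeniusKernel H := by
    rw [h1]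
    exact hx
  simp only [Cfsg.frobeniusKernel, Set.mem_ofPred_eq, not_or] at h2
  obtain ⟨-, h3⟩ := h2
  push Not at h3
  obtain ⟨t, ht⟩ := h3
  exact ⟨t, ClassSizes.mem_conj_smul_iff.mp ht⟩

theorem frob_mem_of_conj_mem (hKH : K ⊓ H = ⊥) (hKH' : K ⊔ H = ⊤)
    (hfpf : ∀ h ∈ H, h ≠ 1 → ∀ k ∈ K, h * k = k * h → k = 1) {x t : G} (hx : x ∈ H) (hx1 : x ≠ 1)
    (ht : t⁻¹ * x * t ∈ H) : t ∈ H := by
  by_contra htH
  have h1 := (frob_data hKH hKH' hfpf).1 t htH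
  have h2 : x ∈ H ⊓ (MulAut.conj t • H) := ⟨hx, ClassSizes.mem_conj_smul_iff.mpr ht⟩
  rw [h1] at h2
  exact hx1 h2

theorem frob_centralizer_compl (hKH : K ⊓ H = ⊥) (hKH' : K ⊔ H = ⊤)
    (hfpf : ∀ h ∈ H, h ≠ 1 → ∀ k ∈ K, h * k = k * h → k = 1) {x : G} (hx : x ∈ H) (hx1 : x ≠ 1) :
    Subgroup.centralizer ({x} : Set G) ≤ H := by
  intro c hc
  refine frob_mem_of_conj_mem hKH hKH' hfpf hx hx1 ?_
  have h1 : x * c = c * x := Subgroup.mem_centralizer_iff.mp hc x rfl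
  have h2 : c⁻¹ * x * c = x := by
    rw [mul_assoc, h1, ← mul_assoc, inv_mul_cancel, one_mul]
  rw [h2]
  exact hx

theorem frob_centralizer_kernel (hKH : K ⊓ H = ⊥) (hKH' : K ⊔ H = ⊤)
    (hfpf : ∀ h ∈ H, h ≠ 1 → ∀ k ∈ K, h * k = k * h → k = 1) {x : G} (hx : x ∈ K) (hx1 : x ≠ 1) :
    Subgroup.centralizer ({x} : Set G) ≤ K := by
  intro c hc
  by_contra hcK
  obtain ⟨t, ht⟩ := frob_exists_conj hKH hKH' hfpf hcK
  have hcomm : x * c = c * x := Subgroup.mem_centralizer_iff.mp hc x rfl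
  have h1 : t⁻¹ * c * t ≠ 1 := by
    intro h0
    have : c = 1 := by
      have h2 : c = t * (t⁻¹ * c * t) * t⁻¹ := by group
      rw [h2, h0]
      group
    rw [this] at hcK
    exact hcK K.one_mem
  have h3 : t⁻¹ * x * t ∈ K := by
    have := hK.conj_mem x hx t⁻¹
    simpa using this
  have h4 := hfpf _ ht h1 _ h3 (by
    have : t⁻¹ * c * t * (t⁻¹ * x * t) = t⁻¹ * (c * x) * t := by group
    rw [this, ← hcomm]
    group)
  apply hx1
  have h2 : x = t * (t⁻¹ * x * t) * t⁻¹ := by group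
  rw [h2, h4]
  group

end Cfsg.Agent.Lib.Char
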