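import Cfsg.Agent.Lib.Char.Brauer
import Cfsg.Agent.Lib.Char.Complete
import Cfsg.Agent.Lib.Char.Ops
import Cfsg.Agent.Lib.Char.DetExt
import Cfsg.Agent.Lib.CharExtra.PReg
import Cfsg.Agent.Lib.FrobThm.Basic
import Cfsg.Agent.Lib.Coprime.FrobCount
import Cfsg.Agent.Lib.Char.Constituent

/-!
# Hall subgroups controlling fusion: existence of a normal complement via Brauer's characterization.
-/

set_option autoImplicit false
set_option linter.unusedSectionVars false
set_option linter.unusedVariables false
set_option linter.style.haveILetI false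
set_option linter.unusedSimpArgs false
set_option linter.unnecessarySimpa false

open scoped ComplexConjugate

namespace Cfsg.Agent.Lib.Char

open Cfsg (classInner IsCharacter IsIrrCharacter IrrCharacter IsClassFunction IsElementary
  IsGeneralizedCharacter)

universe u

/-- In a nilpotent group, taking the `π`-part is a homomorphism. -/
theorem pow_mul_of_nilpotent {E : Type*} [Group E] [Finite E] [hnil : Group.IsNilpotent E]
    {m k r : ℕ} (hcop : Nat.Coprime m k) (hE : ∀ e : E, e ^ (m * k) = 1)
    (hr1 : r ≡ 1 [MOD m]) (hr0 : r ≡ 0 [MOD k]) (e f : E) : (e * f) ^ r = e ^ r * f ^ r := by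
  classical
  obtain ⟨φ⟩ := ((Group.isNilpotent_of_finite_tfae (G := E)).out 0 4).mp hnil
  let τ : (∀ p : (Nat.card E).primeFactors, ∀ P : Sylow p E, (P : Subgroup E)) →
      (∀ p : (Nat.card E).primeFactors, ∀ P : Sylow p E, (P : Subgroup E)) :=
    fun f p P => if (p : ℕ) ∣ m then f p P else 1
  have hτ : ∀ f g, τ (f * g) = τ f * τ g := by
    intro f g
    funext p P
    by_cases h : (p : ℕ) ∣ m
    · simp [τ, h]
    · simp [τ, h]
  have hpow : ∀ f, f ^ r = τ f := by
    intro f
    funext p P
    have hp : (p : ℕ).Prime := Nat.prime_of_mem_primeFactors p.2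
    obtain ⟨j, hj⟩ := P.isPGroup' (f p P)
    have hj' : ((f p P : E)) ^ ((p : ℕ) ^ j) = 1 := by
      have := congrArg (Subtype.val) hj
      simpa using this
    have h1 : orderOf (f p P : E) ∣ (p : ℕ) ^ j := orderOf_dvd_of_pow_eq_one hj'
    have h2 : orderOf (f p P : E) ∣ m * k := orderOf_dvd_of_pow_eq_one (hE _)
    change (f p P) ^ r = τ f p P
    simp only [τ]
    apply Subtype.ext
    by_cases h : (p : ℕ) ∣ m
    · rw [if_pos h]
      have hpk : Nat.Coprime (p : ℕ) k := by
        rw [Nat.Prime.coprime_iff_not_dvd hp]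
        intro h3
        exact hp.one_lt.ne' (Nat.eq_one_of_dvd_coprimes hcop h h3)
      have h3 : Nat.Coprime (orderOf (f p P : E)) k :=
        Nat.Coprime.coprime_dvd_left h1 (hpk.pow_left j)
      have h4 : orderOf (f p P : E) ∣ m := h3.dvd_of_dvd_mul_right h2
      have h5 : (f p P : E) ^ m = 1 := orderOf_dvd_iff_pow_eq_one.mp h4
      have h6 := pow_eq_pow_of_modEq h5 hr1
      simpa using h6
    · rw [if_neg h]
      have hpm : Nat.Coprime (p : ℕ) m := (Nat.Prime.coprime_iff_not_dvd hp).mpr h
      have h3 : Nat.Coprime (orderOf (f p P : E)) m :=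
        Nat.Coprime.coprime_dvd_left h1 (hpm.pow_left j)
      have h4 : orderOf (f p P : E) ∣ k := h3.dvd_of_dvd_mul_left h2
      have h5 : (f p P : E) ^ k = 1 := orderOf_dvd_iff_pow_eq_one.mp h4
      have h6 := pow_eq_pow_of_modEq h5 hr0
      simpa using h6
  obtain ⟨a, rfl⟩ := φ.surjective e
  obtain ⟨b, rfl⟩ := φ.surjective f
  rw [← map_mul, ← map_pow, ← map_pow, ← map_pow, ← map_mul, hpow, hpow, hpow, hτ]

/-- A cyclic group is elementary for every prime. -/
theorem zpowers_isElementary {G : Type*} [Group G] [Finite G] {p : ℕ} (hp : p.Prime) (x : G) :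
    IsElementary p (Subgroup.zpowers x) := by
  classical
  have ho : orderOf x ≠ 0 := (orderOf_pos x).ne'
  set a := (orderOf x).factorization p with ha
  let c : Subgroup.zpowers x := ⟨x, Subgroup.mem_zpowers x⟩ ^ (p ^ a)
  have hord : orderOf c = orderOf x / p ^ a := by
    have h1 : orderOf c = orderOf (⟨x, Subgroup.mem_zpowers x⟩ : Subgroup.zpowers x) / Nat.gcd (orderOf (⟨x, Subgroup.mem_zpowers x⟩ : Subgroup.zpowers x)) (p ^ a) :=
      orderOf_pow _
    have h2 : orderOf (⟨x, Subgroup.mem_zpowers x⟩ : Subgroup.zpowers x) = orderOf x := Subgroup.orderOf_mk _ _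
    rw [h1, h2, Nat.gcd_eq_right (Nat.ordProj_dvd _ _)]
  refine ⟨c, ?_, ?_, ?_⟩
  · rw [Subgroup.mem_center_iff]
    intro g
    exact mul_comm' g c
  · rw [hord]
    exact (Nat.coprime_ordCompl hp ho).symm
  · refine ⟨a, ?_⟩
    have h1 := (Subgroup.zpowers c).card_mul_index
    rw [Nat.card_zpowers, hord, Nat.card_zpowers] at h1
    have h2 : orderOf x / p ^ a ≠ 0 := (Nat.ordCompl_pos p ho).ne'
    apply Nat.eq_of_mul_eq_mul_left (Nat.pos_of_ne_zero h2)
    rw [h1]
    exact (Nat.div_mul_cancel (Nat.ordProj_dvd (orderOf x) p)).symm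

section Hall

variable {G : Type u} [Group G] [Fintype G] (H : Subgroup G) [Fintype H]
  (hHall : Nat.Coprime (Nat.card H) H.index)
  (hfus : ∀ x ∈ H, ∀ y ∈ H, IsConj x y → ∃ h ∈ H, h * x * h⁻¹ = y)
  (helem : ∀ (E : Subgroup G) (p : ℕ), p.Prime → IsElementary p E → Nat.card E ∣ Nat.card H →
    ∃ g : G, E.map (MulAut.conj g).toMonoidHom ≤ H)

/-- The exponent giving the `π`-part. -/
noncomputable def hallR : ℕ := (Nat.chineseRemainder hHall 1 0 : ℕ)

/-- The exponent giving the `π'`-part. -/
noncomputable def hallS : ℕ := (Nat.chineseRemainder hHall 0 1 : ℕ)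

theorem hallR_spec : hallR H hHall ≡ 1 [MOD Nat.card H] ∧ hallR H hHall ≡ 0 [MOD H.index] :=
  (Nat.chineseRemainder hHall 1 0).2

theorem hallS_spec : hallS H hHall ≡ 0 [MOD Nat.card H] ∧ hallS H hHall ≡ 1 [MOD H.index] :=
  (Nat.chineseRemainder hHall 0 1).2

theorem hall_card : Nat.card G = Nat.card H * H.index := (H.card_mul_index).symm

theorem pow_hall_card (g : G) : g ^ (Nat.card H * H.index) = 1 := by
  rw [← hall_card]
  exact pow_card_eq_one'

theorem hall_pi_pow (g : G) : (g ^ hallR H hHall) ^ Nat.card H = 1 := by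
  obtain ⟨t, ht⟩ := (Nat.modEq_zero_iff_dvd.mp (hallR_spec H hHall).2)
  rw [← pow_mul, ht, show H.index * t * Nat.card H = Nat.card H * H.index * t by ring, pow_mul,
    pow_hall_card, one_pow]

theorem hall_pp_pow (g : G) : (g ^ hallS H hHall) ^ H.index = 1 := by
  obtain ⟨t, ht⟩ := (Nat.modEq_zero_iff_dvd.mp (hallS_spec H hHall).1)
  rw [← pow_mul, ht, show Nat.card H * t * H.index = Nat.card H * H.index * t by ring, pow_mul,
    pow_hall_card, one_pow]

theorem hall_pi_mul (g : G) : g ^ hallR H hHall * g ^ hallS H hHall = g := by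
  rw [← pow_add]
  have h1 : hallR H hHall + hallS H hHall ≡ 1 [MOD Nat.card H * H.index] := by
    rw [← Nat.modEq_and_modEq_iff_modEq_mul hHall]
    constructor
    · simpa using (hallR_spec H hHall).1.add (hallS_spec H hHall).1
    · simpa using (hallR_spec H hHall).2.add (hallS_spec H hHall).2
  have h2 := pow_eq_pow_of_modEq (pow_hall_card H g) h1
  simpa using h2

theorem hall_r_of_pi {x : G} (hx : x ^ Nat.card H = 1) : x ^ hallR H hHall = x := by
  have h2 := pow_eq_pow_of_modEq hx (hallR_spec H hHall).1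
  simpa using h2

theorem hall_r_of_pp {y : G} (hy : y ^ H.index = 1) : y ^ hallR H hHall = 1 := by
  have h2 := pow_eq_pow_of_modEq hy (hallR_spec H hHall).2
  simpa using h2

theorem hall_s_of_pi {x : G} (hx : x ^ Nat.card H = 1) : x ^ hallS H hHall = 1 := by
  have h2 := pow_eq_pow_of_modEq hx (hallS_spec H hHall).1
  simpa using h2

theorem hall_s_of_pp {y : G} (hy : y ^ H.index = 1) : y ^ hallS H hHall = y := by
  have h2 := pow_eq_pow_of_modEq hy (hallS_spec H hHall).2
  simpa using h2

theorem hall_r_mul {u y : G} (hc : y * u = u * y) (hu : u ^ Nat.card H = 1) (hy : y ^ H.index = 1) :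
    (u * y) ^ hallR H hHall = u := by
  have hcomm : Commute u y := hc.symm
  rw [hcomm.mul_pow, hall_r_of_pi H hHall hu, hall_r_of_pp H hHall hy, mul_one]

theorem hall_s_mul {u y : G} (hc : y * u = u * y) (hu : u ^ Nat.card H = 1) (hy : y ^ H.index = 1) :
    (u * y) ^ hallS H hHall = y := by
  have hcomm : Commute u y := hc.symm
  rw [hcomm.mul_pow, hall_s_of_pi H hHall hu, hall_s_of_pp H hHall hy, one_mul]

theorem conj_pow_hall (s g : G) (n : ℕ) : (s * g * s⁻¹) ^ n = s * g ^ n * s⁻¹ := by
  simp

include helem in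
/-- Every `π`-element has a conjugate in `H`. -/
theorem exists_conj_mem {x : G} (hx : x ^ Nat.card H = 1) : ∃ s : G, s * x * s⁻¹ ∈ H := by
  have h1 := zpowers_isElementary Nat.prime_two x
  have h2 : Nat.card (Subgroup.zpowers x) ∣ Nat.card H := by
    rw [Nat.card_zpowers]
    exact orderOf_dvd_of_pow_eq_one hx
  obtain ⟨g, hg⟩ := helem _ 2 Nat.prime_two h1 h2
  refine ⟨g, hg ⟨x, Subgroup.mem_zpowers x, ?_⟩⟩
  simp

/-- The extension of a class function. -/
noncomputable def hatFn (θ : H → ℂ) (g : G) : ℂ := by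
  classical
  exact if h : ∃ u : H, IsConj (u : G) (g ^ hallR H hHall) then θ (Classical.choose h) else 0

include hfus in
/-- The value of the extension of a class function. -/
theorem hatFn_eq {θ : H → ℂ} (hθ : ∀ (h x : H), θ (h * x * h⁻¹) = θ x) {g : G} {u : H}
    (hu : IsConj (u : G) (g ^ hallR H hHall)) : hatFn H hHall θ g = θ u := by
  classical
  have hex : ∃ u : H, IsConj (u : G) (g ^ hallR H hHall) := ⟨u, hu⟩
  simp only [hatFn]
  rw [dif_pos hex]
  have h1 := Classical.choose_spec hex
  have h2 : IsConj (u : G) ((Classical.choose hex : H) : G) := hu.trans h1.symm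
  obtain ⟨h, hh, h3⟩ := hfus u u.2 _ (Classical.choose hex).2 h2
  have h4 : (Classical.choose hex : H) = ⟨h, hh⟩ * u * (⟨h, hh⟩ : H)⁻¹ := by
    apply Subtype.ext
    simpa using h3.symm
  rw [h4, hθ]

include hfus in
theorem hatFn_conj {θ : H → ℂ} (hθ : ∀ (h x : H), θ (h * x * h⁻¹) = θ x) (s g : G) :
    hatFn H hHall θ (s * g * s⁻¹) = hatFn H hHall θ g := by
  classical
  by_cases h : ∃ u : H, IsConj (u : G) (g ^ hallR H hHall)
  · obtain ⟨u, hu⟩ := h
    rw [hatFn_eq H hHall hfus hθ hu, hatFn_eq H hHall hfus hθ (g := s * g * s⁻¹) (u := u)]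
    rw [conj_pow_hall]
    exact hu.trans (isConj_iff.mpr ⟨s, rfl⟩)
  · have h2 : ¬ ∃ u : H, IsConj (u : G) ((s * g * s⁻¹) ^ hallR H hHall) := by
      rintro ⟨u, hu⟩
      apply h
      refine ⟨u, hu.trans ?_⟩
      rw [conj_pow_hall]
      exact (isConj_iff.mpr ⟨s, rfl⟩).symm
    simp only [hatFn]
    rw [dif_neg h, dif_neg h2]

open Classical in
/-- The number of conjugators into `H`. -/
noncomputable def conjCount (x : G) : ℕ :=
  (Finset.univ.filter fun s : G => s * x * s⁻¹ ∈ H).card

theorem conjCount_conj (t x : G) : conjCount H (t * x * t⁻¹) = conjCount H x := by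
  classical
  simp only [conjCount]
  refine Finset.card_bij (fun s _ => s * t) ?_ ?_ ?_
  · intro s hs
    simp only [Finset.mem_filter, Finset.mem_univ, true_and] at hs ⊢
    have h1 : s * t * x * (s * t)⁻¹ = s * (t * x * t⁻¹) * s⁻¹ := by group
    rw [h1]
    exact hs
  · intro a _ b _ h
    exact mul_right_cancel h
  · intro s hs
    simp only [Finset.mem_filter, Finset.mem_univ, true_and] at hs
    refine ⟨s * t⁻¹, ?_, by group⟩
    simp only [Finset.mem_filter, Finset.mem_univ, true_and]
    have h1 : s * t⁻¹ * (t * x * t⁻¹) * (s * t⁻¹)⁻¹ = s * x * s⁻¹ := by group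
    rw [h1]
    exact hs

include helem in
theorem conjCount_pos {x : G} (hx : x ^ Nat.card H = 1) : 0 < conjCount H x := by
  classical
  obtain ⟨s, hs⟩ := exists_conj_mem H helem hx
  exact Finset.card_pos.mpr ⟨s, by simpa using hs⟩

open Classical in
/-- The `π'`-elements of the centralizer. -/
noncomputable def ppSet (u : G) (k : ℕ) : Finset G :=
  Finset.univ.filter fun y : G => y * u = u * y ∧ y ^ k = 1

theorem coe_pow_card (u : H) : (u : G) ^ Nat.card H = 1 := by
  have h : u ^ Nat.card H = 1 := pow_card_eq_one'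
  have h2 := congrArg Subtype.val h
  simpa only [SubgroupClass.coe_pow, Subgroup.coe_one] using h2

/-- The basic double counting. -/
theorem hall_sum_identity (Φ : G → ℂ) (hΦ : ∀ s g, Φ (s * g * s⁻¹) = Φ g) :
    ∑ g : G, Φ g * (conjCount H (g ^ hallR H hHall) : ℂ) =
      (Nat.card G : ℂ) * ∑ u : H, ∑ y ∈ ppSet (u : G) H.index, Φ (u * y) := by
  classical
  have h1 : ∀ g : G, Φ g * (conjCount H (g ^ hallR H hHall) : ℂ) =
      ∑ s : G, if s * g ^ hallR H hHall * s⁻¹ ∈ H then Φ g else 0 := by
    intro g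
    simp only [conjCount]
    rw [Finset.sum_ite, Finset.sum_const_zero, add_zero, Finset.sum_const, nsmul_eq_mul, mul_comm]
  simp only [h1]
  rw [Finset.sum_comm]
  have h2 : ∀ s : G, ∑ g : G, (if s * g ^ hallR H hHall * s⁻¹ ∈ H then Φ g else 0) =
      ∑ u : H, ∑ y ∈ ppSet (u : G) H.index, Φ (u * y) := by
    intro s
    rw [Finset.sum_ite, Finset.sum_const_zero, add_zero, Finset.sum_sigma']
    refine Finset.sum_bij' (fun g hg => ⟨⟨s * g ^ hallR H hHall * s⁻¹, (Finset.mem_filter.mp hg).2⟩,
        s * g ^ hallS H hHall * s⁻¹⟩) (fun p _ => s⁻¹ * ((p.1 : G) * p.2) * s) ?_ ?_ ?_ ?_ ?_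
    · intro g hg
      simp only [Finset.mem_sigma, Finset.mem_univ, true_and, ppSet, Finset.mem_filter]
      constructor
      · have h3 : Commute (g ^ hallR H hHall) (g ^ hallS H hHall) := (Commute.refl g).pow_pow _ _
        have h4 : g ^ hallS H hHall * g ^ hallR H hHall = g ^ hallR H hHall * g ^ hallS H hHall := h3.symm
        calc s * g ^ hallS H hHall * s⁻¹ * (s * g ^ hallR H hHall * s⁻¹)
            = s * (g ^ hallS H hHall * g ^ hallR H hHall) * s⁻¹ := by group
          _ = s * (g ^ hallR H hHall * g ^ hallS H hHall) * s⁻¹ := by rw [h4]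
          _ = s * g ^ hallR H hHall * s⁻¹ * (s * g ^ hallS H hHall * s⁻¹) := by group
      · rw [conj_pow_hall, hall_pp_pow]
        group
    · intro p hp
      simp only [Finset.mem_sigma, Finset.mem_univ, true_and, ppSet, Finset.mem_filter] at hp
      simp only [Finset.mem_filter, Finset.mem_univ, true_and]
      have hu : ((p.1 : H) : G) ^ Nat.card H = 1 := coe_pow_card H p.1
      have h3 : (s⁻¹ * ((p.1 : G) * p.2) * s) ^ hallR H hHall = s⁻¹ * (p.1 : G) * s := by
        have h4 := conj_pow_hall s⁻¹ ((p.1 : G) * p.2) (hallR H hHall)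
        rw [inv_inv] at h4
        rw [h4, hall_r_mul H hHall hp.1 hu hp.2]
      rw [h3]
      have h5 : s * (s⁻¹ * (p.1 : G) * s) * s⁻¹ = (p.1 : G) := by group
      rw [h5]
      exact (p.1 : H).2
    · intro g hg
      simp only
      have h3 := hall_pi_mul H hHall g
      calc s⁻¹ * (s * g ^ hallR H hHall * s⁻¹ * (s * g ^ hallS H hHall * s⁻¹)) * s
          = g ^ hallR H hHall * g ^ hallS H hHall := by group
        _ = g := h3
    · intro p hp
      simp only [Finset.mem_sigma, Finset.mem_univ, true_and, ppSet, Finset.mem_filter] at hp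
      have hu : ((p.1 : H) : G) ^ Nat.card H = 1 := coe_pow_card H p.1
      have h3 : (s⁻¹ * ((p.1 : G) * p.2) * s) ^ hallR H hHall = s⁻¹ * (p.1 : G) * s := by
        have h4 := conj_pow_hall s⁻¹ ((p.1 : G) * p.2) (hallR H hHall)
        rw [inv_inv] at h4
        rw [h4, hall_r_mul H hHall hp.1 hu hp.2]
      have h3' : (s⁻¹ * ((p.1 : G) * p.2) * s) ^ hallS H hHall = s⁻¹ * p.2 * s := by
        have h4 := conj_pow_hall s⁻¹ ((p.1 : G) * p.2) (hallS H hHall)
        rw [inv_inv] at h4
        rw [h4, hall_s_mul H hHall hp.1 hu hp.2]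
      apply Sigma.ext
      · apply Subtype.ext
        simp only
        rw [h3]
        group
      · apply heq_of_eq
        simp only
        rw [h3']
        group
    · intro g hg
      simp only
      have h3 := hΦ s g
      rw [← h3]
      congr 1
      have h4 := hall_pi_mul H hHall g
      nth_rewrite 1 [← h4]
      group
  rw [Finset.sum_congr rfl (fun s _ => h2 s), Finset.sum_const, Finset.card_univ, nsmul_eq_mul,
    Nat.card_eq_fintype_card]

include hfus in
/-- The number of conjugators of an element of `H` into `H`. -/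
theorem conjCount_mul (u : H) :
    conjCount H (u : G) * Nat.card (Subgroup.centralizer ({u} : Set H)) =
      Nat.card H * Nat.card (Subgroup.centralizer ({(u : G)} : Set G)) := by
  classical
  have hfib : conjCount H (u : G) = ∑ v ∈ Finset.univ.filter (fun v : H => IsConj u v),
      ((Finset.univ.filter fun s : G => s * (u : G) * s⁻¹ ∈ H).filter
        fun s => s * (u : G) * s⁻¹ = (v : G)).card := by
    simp only [conjCount]
    let f : G → H := fun s => if h : s * (u : G) * s⁻¹ ∈ H then ⟨_, h⟩ else 1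
    have h1 := Finset.card_eq_sum_card_fiberwise (f := f) (s := Finset.univ.filter fun s : G => s * (u : G) * s⁻¹ ∈ H)
      (t := Finset.univ.filter (fun v : H => IsConj u v)) (by
        intro s hs
        have hs' : s * (u : G) * s⁻¹ ∈ H := by simpa using hs
        simp only [Finset.coe_filter, Finset.mem_univ, true_and, Set.mem_setOf_eq, f, dif_pos hs']
        obtain ⟨h, hh, h3⟩ := hfus u u.2 _ hs' (isConj_iff.mpr ⟨s, rfl⟩)
        rw [isConj_iff]
        refine ⟨⟨h, hh⟩, ?_⟩
        apply Subtype.ext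
        simpa using h3)
    rw [h1]
    refine Finset.sum_congr rfl fun v hv => ?_
    congr 1
    ext s
    simp only [Finset.mem_filter, Finset.mem_univ, true_and, f]
    constructor
    · rintro ⟨hs, h3⟩
      refine ⟨hs, ?_⟩
      rw [dif_pos hs] at h3
      exact congrArg Subtype.val h3
    · rintro ⟨hs, h3⟩
      refine ⟨hs, ?_⟩
      rw [dif_pos hs]
      exact Subtype.ext h3
  have hval : ∀ v ∈ Finset.univ.filter (fun v : H => IsConj u v),
      ((Finset.univ.filter fun s : G => s * (u : G) * s⁻¹ ∈ H).filter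
        fun s => s * (u : G) * s⁻¹ = (v : G)).card = Nat.card (Subgroup.centralizer ({(u : G)} : Set G)) := by
    intro v hv
    simp only [Finset.mem_filter, Finset.mem_univ, true_and] at hv
    obtain ⟨h, hh⟩ := isConj_iff.mp hv
    have hh' : (h : G) * u * (h : G)⁻¹ = v := by
      have := congrArg Subtype.val hh
      simpa using this
    rw [Nat.card_eq_fintype_card, Fintype.card_subtype]
    refine Finset.card_bij (fun s _ => (h : G)⁻¹ * s) ?_ ?_ ?_
    · intro s hs
      simp only [Finset.mem_filter, Finset.mem_univ, true_and] at hs ⊢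
      rw [Subgroup.mem_centralizer_singleton_iff]
      have h3 := hs.2
      rw [← hh'] at h3
      have h4 : s * (u : G) = (h : G) * u * (h : G)⁻¹ * s := by
        rw [← h3]
        group
      calc (h : G)⁻¹ * s * u = (h : G)⁻¹ * (s * u) := by group
        _ = (h : G)⁻¹ * ((h : G) * u * (h : G)⁻¹ * s) := by rw [h4]
        _ = u * ((h : G)⁻¹ * s) := by group
    · intro a _ b _ hab
      exact mul_left_cancel hab
    · intro c hc
      simp only [Finset.mem_filter, Finset.mem_univ, true_and] at hc
      rw [Subgroup.mem_centralizer_singleton_iff] at hc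
      refine ⟨(h : G) * c, ?_, by group⟩
      simp only [Finset.mem_filter, Finset.mem_univ, true_and]
      have h3 : (h : G) * c * u * ((h : G) * c)⁻¹ = v := by
        rw [← hh', mul_assoc (h : G) c, hc]
        group
      rw [h3]
      exact ⟨v.2, rfl⟩
  have h6 : (Finset.univ.filter (fun v : H => IsConj u v)).card = (Subgroup.centralizer ({u} : Set H)).index := by
    convert card_filter_isConj u
  rw [hfib, Finset.sum_congr rfl hval, Finset.sum_const, smul_eq_mul, h6]
  have h5 := index_mul_card_centralizer u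
  calc (Subgroup.centralizer ({u} : Set H)).index * Nat.card (Subgroup.centralizer ({(u : G)} : Set G)) *
        Nat.card (Subgroup.centralizer ({u} : Set H))
      = ((Subgroup.centralizer ({u} : Set H)).index * Nat.card (Subgroup.centralizer ({u} : Set H))) *
        Nat.card (Subgroup.centralizer ({(u : G)} : Set G)) := by ring
    _ = _ := by rw [h5]

include hHall hfus helem in
/-- `C_H(u)` contains the `π`-part of `C_G(u)`: Sylow version. -/
theorem sylow_card_dvd_centralizer (u : H) {p : ℕ} (hp : p.Prime) (hpm : p ∣ Nat.card H)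
    (C : Subgroup G) (hmemC : ∀ a : G, a ∈ C ↔ a * u = u * a) (P : Sylow p C) :
    Nat.card P ∣ Nat.card (Subgroup.centralizer ({u} : Set H)) := by
  classical
  haveI : Fact p.Prime := ⟨hp⟩
  have huC : (u : G) ∈ C := (hmemC u).mpr rfl
  have hpk : ¬ p ∣ H.index := by
    intro h3
    exact hp.one_lt.ne' (Nat.eq_one_of_dvd_coprimes hHall hpm h3)
  -- decomposition of `u`
  set o := orderOf (u : G) with ho
  have ho0 : o ≠ 0 := (orderOf_pos _).ne'
  have hcopo : Nat.Coprime (p ^ o.factorization p) (o / p ^ o.factorization p) :=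
    (Nat.coprime_ordCompl hp ho0).pow_left _
  obtain ⟨s, hs1, hs2⟩ := Nat.chineseRemainder hcopo 0 1
  obtain ⟨s', hs'1, hs'2⟩ := Nat.chineseRemainder hcopo 1 0
  set c : G := (u : G) ^ s with hc
  set d : G := (u : G) ^ s' with hd
  have hud : c * d = u := by
    rw [hc, hd, ← pow_add]
    have h1 : s + s' ≡ 1 [MOD o] := by
      have h2 : (p ^ o.factorization p) * (o / p ^ o.factorization p) = o :=
        Nat.ordProj_mul_ordCompl_eq_self o p
      rw [← h2, ← Nat.modEq_and_modEq_iff_modEq_mul hcopo]
      constructor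
      · simpa using hs1.add hs'1
      · simpa using hs2.add hs'2
    have h2 := pow_eq_pow_of_modEq (pow_orderOf_eq_one (u : G)) h1
    simpa using h2
  have hcmem : c ∈ C := Subgroup.pow_mem _ huC _
  have hdmem : d ∈ C := Subgroup.pow_mem _ huC _
  -- the order of `c` is prime to `p`, the order of `d` a power of `p`
  have hco : c ^ (o / p ^ o.factorization p) = 1 := by
    obtain ⟨t, ht⟩ := Nat.modEq_zero_iff_dvd.mp hs1
    rw [hc, ← pow_mul, ht]
    rw [show p ^ o.factorization p * t * (o / p ^ o.factorization p) =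
      (p ^ o.factorization p * (o / p ^ o.factorization p)) * t by ring,
      Nat.ordProj_mul_ordCompl_eq_self, pow_mul, ho, pow_orderOf_eq_one, one_pow]
  have hdo : d ^ (p ^ o.factorization p) = 1 := by
    obtain ⟨t, ht⟩ := Nat.modEq_zero_iff_dvd.mp hs'2
    rw [hd, ← pow_mul, ht]
    rw [show (o / p ^ o.factorization p) * t * (p ^ o.factorization p) =
      (p ^ o.factorization p * (o / p ^ o.factorization p)) * t by ring,
      Nat.ordProj_mul_ordCompl_eq_self, pow_mul, ho, pow_orderOf_eq_one, one_pow]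
  have hccop : Nat.Coprime (orderOf c) p := by
    have h1 : orderOf c ∣ o / p ^ o.factorization p := orderOf_dvd_of_pow_eq_one hco
    exact Nat.Coprime.coprime_dvd_left h1 (Nat.coprime_ordCompl hp ho0).symm
  -- central element `d` lies in every Sylow subgroup of `C`
  have hdP : (⟨d, hdmem⟩ : C) ∈ (P : Subgroup C) := by
    let d' : C := ⟨d, hdmem⟩
    have hcen : ∀ z : C, z * d' = d' * z := by
      intro z
      apply Subtype.ext
      have hz : (z : G) * u = u * z := (hmemC z).mp z.2
      have h1 : Commute (z : G) (u : G) := hz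
      exact (h1.pow_right s').eq
    haveI hn : (Subgroup.zpowers d').Normal := by
      refine ⟨fun n hn g => ?_⟩
      obtain ⟨i, rfl⟩ := Subgroup.mem_zpowers_iff.mp hn
      have h2 : Commute g (d' ^ i) := (show Commute g d' from hcen g).zpow_right i
      rw [h2.eq, mul_inv_cancel_right]
      exact Subgroup.zpow_mem_zpowers _ _
    have hpg : IsPGroup p (Subgroup.zpowers d') := by
      rw [IsPGroup.iff_card]
      refine ⟨(orderOf d').factorization p, ?_⟩
      rw [Nat.card_zpowers]
      have h1 : orderOf d' ∣ p ^ o.factorization p := by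
        apply orderOf_dvd_of_pow_eq_one
        apply Subtype.ext
        simpa [d'] using hdo
      obtain ⟨j, -, hj⟩ := (Nat.dvd_prime_pow hp).mp h1
      rw [hj, hp.factorization_pow]
      simp
    have h3 := (P.isPGroup').to_sup_of_normal_right hpg
    have h4 := P.is_maximal' h3 le_sup_left
    have h5 : d' ∈ (P : Subgroup C) ⊔ Subgroup.zpowers d' :=
      (le_sup_right : Subgroup.zpowers d' ≤ _) (Subgroup.mem_zpowers d')
    rwa [h4] at h5
  -- the subgroup `E`
  let Q : Subgroup G := (P : Subgroup C).map C.subtype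
  have hQC : ∀ x ∈ Q, x ∈ C := by
    rintro x ⟨w, -, rfl⟩
    exact w.2
  have hQp : IsPGroup p Q := (P.isPGroup').map C.subtype
  have hQcard : Nat.card Q = Nat.card P :=
    (Nat.card_congr ((P : Subgroup C).equivMapOfInjective C.subtype C.subtype_injective).toEquiv).symm
  have hcomm : ∀ x ∈ Q, ∀ i : ℤ, Commute x (c ^ i) := by
    intro x hx i
    have h1 : Commute x (u : G) := (hmemC x).mp (hQC x hx)
    exact (h1.pow_right s).zpow_right i
  let f : Q × Subgroup.zpowers c →* G :=
    MonoidHom.noncommCoprod Q.subtype (Subgroup.zpowers c).subtype (by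
      rintro ⟨x, hx⟩ ⟨z, hz⟩
      obtain ⟨i, rfl⟩ := Subgroup.mem_zpowers_iff.mp hz
      exact hcomm x hx i)
  have hfapp : ∀ a : Q × Subgroup.zpowers c, f a = (a.1 : G) * (a.2 : G) := fun a => rfl
  have hQZ : ∀ x ∈ Q, x ∈ Subgroup.zpowers c → x = 1 := by
    intro x hx hz
    obtain ⟨j, hj⟩ := hQp ⟨x, hx⟩
    have h1 : x ^ (p ^ j) = 1 := by
      have := congrArg Subtype.val hj
      simpa using this
    have h2 : orderOf x ∣ p ^ j := orderOf_dvd_of_pow_eq_one h1
    have h3 : orderOf x ∣ orderOf c := by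
      obtain ⟨i, rfl⟩ := Subgroup.mem_zpowers_iff.mp hz
      exact orderOf_dvd_of_pow_eq_one (by rw [← zpow_natCast, ← zpow_mul, mul_comm, zpow_mul, zpow_natCast, pow_orderOf_eq_one, one_zpow])
    have h4 : Nat.Coprime (orderOf x) (orderOf c) :=
      Nat.Coprime.coprime_dvd_left h2 (hccop.symm.pow_left j)
    have h5 : orderOf x = 1 := Nat.eq_one_of_dvd_coprimes h4 dvd_rfl h3
    exact orderOf_eq_one_iff.mp h5
  have hfinj : Function.Injective f := by
    rw [injective_iff_map_eq_one]
    rintro ⟨x, z⟩ h1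
    rw [hfapp] at h1
    have h2 : (x : G) = (z : G)⁻¹ := eq_inv_of_mul_eq_one_left h1
    have h3 : (x : G) = 1 := hQZ x x.2 (by rw [h2]; exact Subgroup.inv_mem _ z.2)
    have h4 : (z : G) = 1 := by
      rw [h3, one_mul] at h1
      exact h1
    ext <;> simp [h3, h4]
  let E : Subgroup G := f.range
  have hEcard : Nat.card E = Nat.card Q * orderOf c := by
    have h1 : Nat.card E = Nat.card (Q × Subgroup.zpowers c) :=
      (Nat.card_congr (MonoidHom.ofInjective hfinj).toEquiv).symm
    rw [h1, Nat.card_prod, Nat.card_zpowers]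
  have hQE : ∀ x ∈ Q, x ∈ E := fun x hx => ⟨(⟨x, hx⟩, 1), by simp [hfapp]⟩
  have hcE : c ∈ E := ⟨(1, ⟨c, Subgroup.mem_zpowers c⟩), by simp [hfapp]⟩
  have hdQ : d ∈ Q := ⟨⟨d, hdmem⟩, hdP, rfl⟩
  have huE : (u : G) ∈ E := by
    rw [← hud]
    exact E.mul_mem hcE (hQE d hdQ)
  -- `E` is elementary
  have hEelem : IsElementary p E := by
    refine ⟨⟨c, hcE⟩, ?_, ?_, ?_⟩
    · rw [Subgroup.mem_center_iff]
      rintro ⟨g, a, rfl⟩
      apply Subtype.ext
      change f a * c = c * f a
      rw [hfapp]
      obtain ⟨x, z⟩ := a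
      obtain ⟨i, hi⟩ := Subgroup.mem_zpowers_iff.mp z.2
      have h1 : Commute (x : G) c := by simpa using hcomm x x.2 1
      have h2 : Commute (z : G) c := by
        rw [← hi]
        exact (Commute.refl c).zpow_left i
      exact (h1.mul_left h2)
    · rw [show orderOf (⟨c, hcE⟩ : E) = orderOf c from Subgroup.orderOf_mk _ _]
      exact hccop
    · have h1 := (Subgroup.zpowers (⟨c, hcE⟩ : E)).card_mul_index
      rw [Nat.card_zpowers, show orderOf (⟨c, hcE⟩ : E) = orderOf c from Subgroup.orderOf_mk _ _, hEcard,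
        mul_comm] at h1
      have h2 : (Subgroup.zpowers (⟨c, hcE⟩ : E)).index = Nat.card Q :=
        Nat.eq_of_mul_eq_mul_right (orderOf_pos c) h1
      rw [h2]
      obtain ⟨j, hj⟩ := IsPGroup.iff_card.mp hQp
      exact ⟨j, hj⟩
  -- the order of `E` divides `|H|`
  have hQdvd : Nat.card Q ∣ Nat.card H := by
    obtain ⟨j, hj⟩ := IsPGroup.iff_card.mp hQp
    have h1 : Nat.card Q ∣ Nat.card G := Subgroup.card_subgroup_dvd_card Q
    rw [hall_card H] at h1
    have h2 : Nat.Coprime (Nat.card Q) H.index := by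
      rw [hj]
      exact ((Nat.Prime.coprime_iff_not_dvd hp).mpr hpk).pow_left j
    exact h2.dvd_of_dvd_mul_right h1
  have hcdvd : orderOf c ∣ Nat.card H := by
    apply orderOf_dvd_of_pow_eq_one
    rw [hc, ← pow_mul, mul_comm, pow_mul, coe_pow_card, one_pow]
  have hEdvd : Nat.card E ∣ Nat.card H := by
    rw [hEcard]
    apply Nat.Coprime.mul_dvd_of_dvd_of_dvd _ hQdvd hcdvd
    obtain ⟨j, hj⟩ := IsPGroup.iff_card.mp hQp
    rw [hj]
    exact hccop.symm.pow_left j
  obtain ⟨g, hg⟩ := helem E p hp hEelem hEdvd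
  have hgu : g * u * g⁻¹ ∈ H := hg ⟨u, huE, by simp⟩
  obtain ⟨h, hh, h3⟩ := hfus _ hgu u u.2 ((isConj_iff.mpr ⟨g, rfl⟩ : IsConj (u : G) (g * u * g⁻¹)).symm)
  -- the element `h g` centralizes `u` and conjugates `Q` into `H`
  let g' := h * g
  have hg'u : g' * u * g'⁻¹ = u := by
    have h4 : g' * u * g'⁻¹ = h * (g * u * g⁻¹) * h⁻¹ := by
      simp only [g']
      group
    rw [h4, h3]
  have hmap : ∀ x ∈ Q, g' * x * g'⁻¹ ∈ H := by
    intro x hx
    have h4 : g * x * g⁻¹ ∈ H := hg ⟨x, hQE x hx, by simp⟩
    have h5 : g' * x * g'⁻¹ = h * (g * x * g⁻¹) * h⁻¹ := by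
      simp only [g']
      group
    rw [h5]
    exact H.mul_mem (H.mul_mem hh h4) (H.inv_mem hh)
  have hcen : ∀ x ∈ Q, (g' * x * g'⁻¹) * u = u * (g' * x * g'⁻¹) := by
    intro x hx
    have h1 : x * u = u * x := (hmemC x).mp (hQC x hx)
    have h2 : g' * u = u * g' := by
      have := hg'u
      rw [mul_inv_eq_iff_eq_mul] at this
      exact this
    have h2' : g'⁻¹ * u = u * g'⁻¹ := by
      have h3 : g'⁻¹ * (g' * u) * g'⁻¹ = g'⁻¹ * (u * g') * g'⁻¹ := by rw [h2]
      simpa [mul_assoc] using h3.symm
    calc g' * x * g'⁻¹ * u = g' * x * (g'⁻¹ * u) := by group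
      _ = g' * (x * u) * g'⁻¹ := by rw [h2']; group
      _ = g' * (u * x) * g'⁻¹ := by rw [h1]
      _ = (g' * u) * x * g'⁻¹ := by group
      _ = u * (g' * x * g'⁻¹) := by rw [h2]; group
  -- the map into `C_H(u)`
  let F : Q →* Subgroup.centralizer ({u} : Set H) :=
    { toFun := fun x => ⟨⟨g' * x * g'⁻¹, hmap x x.2⟩, by
        rw [Subgroup.mem_centralizer_singleton_iff]
        apply Subtype.ext
        exact hcen x x.2⟩
      map_one' := by
        apply Subtype.ext
        apply Subtype.ext
        simp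
      map_mul' := by
        intro a b
        apply Subtype.ext
        apply Subtype.ext
        simp only [Subgroup.coe_mul]
        group }
  have hFinj : Function.Injective F := by
    intro a b hab
    have h4 := congrArg Subtype.val (congrArg Subtype.val hab)
    have h5 : g' * (a : G) * g'⁻¹ = g' * (b : G) * g'⁻¹ := h4
    apply Subtype.ext
    simpa using h5
  rw [← hQcard]
  have h7 : Nat.card Q = Nat.card F.range :=
    Nat.card_congr (MonoidHom.ofInjective hFinj).toEquiv
  rw [h7]
  exact Subgroup.card_subgroup_dvd_card _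

/-- The `π'`-part of the order of the centralizer. -/
noncomputable def ccPrime (u : G) : ℕ :=
  Nat.gcd (Nat.card (Subgroup.centralizer ({u} : Set G))) H.index

include hHall hfus helem in
/-- `|C_G(u)| = |C_H(u)| * c'(u)`. -/
theorem card_centralizer_split (u : H) :
    Nat.card (Subgroup.centralizer ({(u : G)} : Set G)) =
      Nat.card (Subgroup.centralizer ({u} : Set H)) * ccPrime H (u : G) := by
  classical
  set a := Nat.card (Subgroup.centralizer ({(u : G)} : Set G)) with ha
  set b := Nat.card (Subgroup.centralizer ({u} : Set H)) with hb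
  have ha0 : a ≠ 0 := Nat.card_pos.ne'
  have hb0 : b ≠ 0 := Nat.card_pos.ne'
  have hadvd : a ∣ Nat.card H * H.index := by
    rw [← hall_card]
    exact Subgroup.card_subgroup_dvd_card _
  have hsplit : a = Nat.gcd a (Nat.card H) * Nat.gcd a H.index := by
    have h1 := hHall.gcd_mul a
    rw [Nat.gcd_eq_left hadvd] at h1
    exact h1
  rw [ccPrime]
  -- `b` divides `a` and `|H|`
  have hba : b ∣ a := by
    have h1 : Function.Injective (fun x : Subgroup.centralizer ({u} : Set H) =>
        (⟨((x : H) : G), by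
          rw [Subgroup.mem_centralizer_singleton_iff]
          have := Subgroup.mem_centralizer_singleton_iff.mp x.2
          exact congrArg Subtype.val this⟩ : Subgroup.centralizer ({(u : G)} : Set G))) := by
      intro x y hxy
      apply Subtype.ext
      apply Subtype.ext
      have h9 := congrArg Subtype.val hxy
      exact h9
    let f : Subgroup.centralizer ({u} : Set H) →* Subgroup.centralizer ({(u : G)} : Set G) :=
      { toFun := fun x => (⟨((x : H) : G), by
          rw [Subgroup.mem_centralizer_singleton_iff]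
          have := Subgroup.mem_centralizer_singleton_iff.mp x.2
          exact congrArg Subtype.val this⟩ : Subgroup.centralizer ({(u : G)} : Set G))
        map_one' := rfl
        map_mul' := fun _ _ => rfl }
    have h2 : Function.Injective f := h1
    have h3 : b = Nat.card f.range := Nat.card_congr (MonoidHom.ofInjective h2).toEquiv
    rw [h3]
    exact Subgroup.card_subgroup_dvd_card _
  have hbm : b ∣ Nat.card H := Subgroup.card_subgroup_dvd_card _
  have hbg : b ∣ Nat.gcd a (Nat.card H) := Nat.dvd_gcd hba hbm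
  -- conversely
  have hgb : Nat.gcd a (Nat.card H) ∣ b := by
    have hg0 : Nat.gcd a (Nat.card H) ≠ 0 := Nat.gcd_ne_zero_left ha0
    rw [← Nat.factorization_prime_le_iff_dvd hg0 hb0]
    intro p hp
    by_cases hpm : p ∣ Nat.card H
    · haveI : Fact p.Prime := ⟨hp⟩
      let P : Sylow p (Subgroup.centralizer ({(u : G)} : Set G)) := default
      have h1 := sylow_card_dvd_centralizer H hHall hfus helem u hp hpm _
        (fun a => Subgroup.mem_centralizer_singleton_iff) P
      have h2 : Nat.card P = p ^ a.factorization p := Sylow.card_eq_multiplicity P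
      rw [h2] at h1
      have h3 := (hp.pow_dvd_iff_le_factorization hb0).mp h1
      have h4 : (Nat.gcd a (Nat.card H)).factorization p ≤ a.factorization p :=
        (Nat.factorization_prime_le_iff_dvd hg0 ha0).mpr (Nat.gcd_dvd_left _ _) p hp
      omega
    · have h2 : (Nat.gcd a (Nat.card H)).factorization p = 0 := by
        apply Nat.factorization_eq_zero_of_not_dvd
        intro h3
        exact hpm (h3.trans (Nat.gcd_dvd_right _ _))
      omega
  have hgeq : Nat.gcd a (Nat.card H) = b := Nat.dvd_antisymm hgb hbg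
  rw [← hgeq]
  exact hsplit

include hHall hfus in
/-- The value of the count of conjugators. -/
theorem conjCount_eq (hsplit : ∀ u : H, Nat.card (Subgroup.centralizer ({(u : G)} : Set G)) =
      Nat.card (Subgroup.centralizer ({u} : Set H)) * ccPrime H (u : G)) (u : H) :
    conjCount H (u : G) = Nat.card H * ccPrime H (u : G) := by
  have h1 := conjCount_mul H hfus u
  rw [hsplit u] at h1
  have hb : 0 < Nat.card (Subgroup.centralizer ({u} : Set H)) := Nat.card_pos
  apply Nat.eq_of_mul_eq_mul_right hb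
  rw [h1]
  ring

/-- `c'(u)` divides the number of `π'`-elements in the centralizer. -/
theorem ccPrime_dvd (u : G) : ccPrime H u ∣ (ppSet u H.index).card := by
  classical
  set C := Subgroup.centralizer ({u} : Set G) with hC
  have h1 : ccPrime H u ∣ Nat.card C := Nat.gcd_dvd_left _ _
  have h2 := Cfsg.Agent.Lib.Coprime.frobenius_count (G := C) (ccPrime H u) h1
  have h3 : Nat.card {x : C // x ^ ccPrime H u = 1} = (ppSet u H.index).card := by
    rw [Nat.card_eq_fintype_card, Fintype.card_subtype]
    refine Finset.card_bij (fun x _ => (x : G)) ?_ ?_ ?_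
    · intro x hx
      simp only [Finset.mem_filter, Finset.mem_univ, true_and] at hx
      simp only [ppSet, Finset.mem_filter, Finset.mem_univ, true_and]
      refine ⟨Subgroup.mem_centralizer_singleton_iff.mp x.2, ?_⟩
      have h4 : (x : G) ^ ccPrime H u = 1 := by
        have := congrArg Subtype.val hx
        simpa using this
      obtain ⟨t, ht⟩ : ccPrime H u ∣ H.index := Nat.gcd_dvd_right _ _
      rw [ht, pow_mul, h4, one_pow]
    · intro x _ y _ h
      exact Subtype.ext h
    · intro y hy
      simp only [ppSet, Finset.mem_filter, Finset.mem_univ, true_and] at hy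
      have hyC : y ∈ C := Subgroup.mem_centralizer_singleton_iff.mpr hy.1
      refine ⟨⟨y, hyC⟩, ?_, rfl⟩
      simp only [Finset.mem_filter, Finset.mem_univ, true_and]
      apply Subtype.ext
      have h5 : (⟨y, hyC⟩ : C) ^ Nat.card C = 1 := pow_card_eq_one'
      have h6 : y ^ Nat.card C = 1 := congrArg Subtype.val h5
      have h7 : y ^ ccPrime H u = 1 := by
        rw [ccPrime, ← hC]
        exact pow_gcd_eq_one.mpr ⟨h6, hy.2⟩
      simpa using h7
  rwa [h3] at h2

include hHall hfus helem in
/-- **The exact count of `π'`-elements of centralizers, and the summation formula.** -/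
theorem ppSet_card_eq (u : H) : (ppSet (u : G) H.index).card = ccPrime H (u : G) := by
  classical
  have hsplit := card_centralizer_split H hHall hfus helem
  have hA := conjCount_eq H hHall hfus hsplit
  have hH0 : (Nat.card H : ℂ) ≠ 0 := by exact_mod_cast (Nat.card_pos (α := H)).ne'
  have hG0 : (Nat.card G : ℂ) ≠ 0 := by exact_mod_cast (Nat.card_pos (α := G)).ne'
  have hcc0 : ∀ u : G, ccPrime H u ≠ 0 := fun u => Nat.gcd_ne_zero_right Subgroup.index_ne_zero_of_finite
  have hApos : ∀ g : G, 0 < conjCount H (g ^ hallR H hHall) := fun g =>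
    conjCount_pos H helem (hall_pi_pow H hHall g)
  -- apply the identity to `1 / A`
  let Φ : G → ℂ := fun g => ((conjCount H (g ^ hallR H hHall) : ℕ) : ℂ)⁻¹
  have hΦ : ∀ s g, Φ (s * g * s⁻¹) = Φ g := by
    intro s g
    simp only [Φ]
    rw [conj_pow_hall, conjCount_conj]
  have h1 := hall_sum_identity H hHall Φ hΦ
  have hleft : ∑ g : G, Φ g * (conjCount H (g ^ hallR H hHall) : ℂ) = (Nat.card G : ℂ) := by
    have : ∀ g : G, Φ g * (conjCount H (g ^ hallR H hHall) : ℂ) = 1 := by
      intro g
      apply inv_mul_cancel₀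
      exact_mod_cast (hApos g).ne'
    simp only [this, Finset.sum_const, Finset.card_univ, nsmul_eq_mul, mul_one, Nat.card_eq_fintype_card]
  rw [hleft] at h1
  have h2 : ∑ u : H, ∑ y ∈ ppSet (u : G) H.index, Φ (u * y) = 1 := by
    apply mul_left_cancel₀ hG0
    rw [mul_one]
    exact h1.symm
  have hterm : ∀ u : H, ∑ y ∈ ppSet (u : G) H.index, Φ (u * y) =
      ((ppSet (u : G) H.index).card : ℂ) / ((Nat.card H : ℂ) * (ccPrime H (u : G) : ℂ)) := by
    intro u
    have h3 : ∀ y ∈ ppSet (u : G) H.index, Φ (u * y) = ((Nat.card H : ℂ) * (ccPrime H (u : G) : ℂ))⁻¹ := by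
      intro y hy
      simp only [ppSet, Finset.mem_filter, Finset.mem_univ, true_and] at hy
      simp only [Φ]
      rw [hall_r_mul H hHall hy.1 (coe_pow_card H u) hy.2, hA u]
      push_cast
      rfl
    rw [Finset.sum_congr rfl h3, Finset.sum_const, nsmul_eq_mul, div_eq_mul_inv]
  simp only [hterm] at h2
  -- quotients
  have hq : ∀ u : H, ∃ q : ℕ, (ppSet (u : G) H.index).card = ccPrime H (u : G) * q := fun u => ccPrime_dvd H (u : G)
  choose q hq using hq
  have hqpos : ∀ u : H, 1 ≤ q u := by
    intro u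
    have h3 : 0 < (ppSet (u : G) H.index).card := by
      apply Finset.card_pos.mpr
      exact ⟨1, by simp [ppSet]⟩
    rw [hq u] at h3
    exact Nat.pos_of_mul_pos_left h3 |> fun h => h
  have h4 : ∑ u : H, (q u : ℂ) = (Nat.card H : ℂ) := by
    have h5 : ∀ u : H, ((ppSet (u : G) H.index).card : ℂ) / ((Nat.card H : ℂ) * (ccPrime H (u : G) : ℂ)) =
        (q u : ℂ) / (Nat.card H : ℂ) := by
      intro u
      rw [hq u]
      push_cast
      have h6 : (ccPrime H (u : G) : ℂ) ≠ 0 := by exact_mod_cast hcc0 _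
      field_simp
    simp only [h5] at h2
    rw [← Finset.sum_div, div_eq_one_iff_eq hH0] at h2
    exact h2
  have h5 : ∑ u : H, q u = Nat.card H := by exact_mod_cast h4
  have h6 : ∑ u : H, 1 = ∑ u : H, q u := by
    rw [h5]
    simp [Nat.card_eq_fintype_card]
  have h7 := (Finset.sum_eq_sum_iff_of_le (fun u _ => hqpos u)).mp h6 u (Finset.mem_univ _)
  rw [hq u, ← h7, mul_one]

include hHall hfus helem in
/-- The summation formula. -/
theorem hall_sum_formula (F : G → ℂ) (hF : ∀ s g, F (s * g * s⁻¹) = F g) (f : H → ℂ)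
    (hFf : ∀ (u : H) (y : G), y ∈ ppSet (u : G) H.index → F (u * y) = f u) :
    ∑ g : G, F g = (H.index : ℂ) * ∑ u : H, f u := by
  classical
  have hsplit := card_centralizer_split H hHall hfus helem
  have hA := conjCount_eq H hHall hfus hsplit
  have hH0 : (Nat.card H : ℂ) ≠ 0 := by exact_mod_cast (Nat.card_pos (α := H)).ne'
  have hG0 : (Nat.card G : ℂ) ≠ 0 := by exact_mod_cast (Nat.card_pos (α := G)).ne'
  have hcc0 : ∀ u : G, ccPrime H u ≠ 0 := fun u => Nat.gcd_ne_zero_right Subgroup.index_ne_zero_of_finite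
  have hApos : ∀ g : G, 0 < conjCount H (g ^ hallR H hHall) := fun g =>
    conjCount_pos H helem (hall_pi_pow H hHall g)
  let Φ : G → ℂ := fun g => F g * ((conjCount H (g ^ hallR H hHall) : ℕ) : ℂ)⁻¹
  have hΦ : ∀ s g, Φ (s * g * s⁻¹) = Φ g := by
    intro s g
    simp only [Φ]
    rw [conj_pow_hall, conjCount_conj, hF]
  have h1 := hall_sum_identity H hHall Φ hΦ
  have hleft : ∑ g : G, Φ g * (conjCount H (g ^ hallR H hHall) : ℂ) = ∑ g : G, F g := by
    refine Finset.sum_congr rfl fun g _ => ?_
    simp only [Φ]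
    rw [mul_assoc, inv_mul_cancel₀, mul_one]
    exact_mod_cast (hApos g).ne'
  rw [hleft] at h1
  rw [h1]
  have hterm : ∀ u : H, ∑ y ∈ ppSet (u : G) H.index, Φ (u * y) = f u * (Nat.card H : ℂ)⁻¹ := by
    intro u
    have h3 : ∀ y ∈ ppSet (u : G) H.index, Φ (u * y) = f u * ((Nat.card H : ℂ) * (ccPrime H (u : G) : ℂ))⁻¹ := by
      intro y hy
      have hy' := hy
      simp only [ppSet, Finset.mem_filter, Finset.mem_univ, true_and] at hy'
      simp only [Φ]
      rw [hFf u y hy, hall_r_mul H hHall hy'.1 (coe_pow_card H u) hy'.2, hA u]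
      push_cast
      rfl
    rw [Finset.sum_congr rfl h3, Finset.sum_const, nsmul_eq_mul, ppSet_card_eq H hHall hfus helem u]
    have h6 : (ccPrime H (u : G) : ℂ) ≠ 0 := by exact_mod_cast hcc0 _
    field_simp
  simp only [hterm]
  rw [← Finset.sum_mul, hall_card H]
  push_cast
  field_simp

include hHall hfus helem in
/-- The extension is an isometry. -/
theorem classInner_hatFn {θ θ' : H → ℂ} (hθ : ∀ (h x : H), θ (h * x * h⁻¹) = θ x)
    (hθ' : ∀ (h x : H), θ' (h * x * h⁻¹) = θ' x) :
    classInner (hatFn H hHall θ) (hatFn H hHall θ') = classInner θ θ' := by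
  classical
  have h1 := hall_sum_formula H hHall hfus helem
    (fun g => hatFn H hHall θ g * conj (hatFn H hHall θ' g))
    (by
      intro s g
      rw [hatFn_conj H hHall hfus hθ, hatFn_conj H hHall hfus hθ'])
    (fun u => θ u * conj (θ' u))
    (by
      intro u y hy
      simp only [ppSet, Finset.mem_filter, Finset.mem_univ, true_and] at hy
      have h3 : IsConj (u : G) (((u : G) * y) ^ hallR H hHall) := by
        rw [hall_r_mul H hHall hy.1 (coe_pow_card H u) hy.2]
      rw [hatFn_eq H hHall hfus hθ h3, hatFn_eq H hHall hfus hθ' h3])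
  simp only [classInner]
  rw [h1, hall_card H]
  push_cast
  have hH0 : (Nat.card H : ℂ) ≠ 0 := by exact_mod_cast (Nat.card_pos (α := H)).ne'
  have hk0 : (H.index : ℂ) ≠ 0 := by exact_mod_cast Subgroup.index_ne_zero_of_finite
  field_simp

include hHall hfus helem in
/-- The extension restricts to a character on an elementary subgroup. -/
theorem hatFn_restrict_isCharacter {θ : H → ℂ} (hθc : IsCharacter H θ) (E : Subgroup G) (p : ℕ)
    (hp : p.Prime) (hE : IsElementary p E) :
    IsCharacter E (fun e : E => hatFn H hHall θ e) := by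
  classical
  have hθ : ∀ (h x : H), θ (h * x * h⁻¹) = θ x := by
    intro h x
    have := IsCharacter.isClassFunction hθc x h
    simpa using this
  haveI hnil : Group.IsNilpotent E := Cfsg.Agent.Lib.CharExtra.isNilpotent_of_isElementary hp hE
  have hpow : ∀ e f : E, (e * f) ^ hallR H hHall = e ^ hallR H hHall * f ^ hallR H hHall :=
    pow_mul_of_nilpotent hHall (fun e => by
      apply Subtype.ext
      simpa using pow_hall_card H (e : G)) (hallR_spec H hHall).1 (hallR_spec H hHall).2
  let ψ : E →* G :=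
    { toFun := fun e => (e : G) ^ hallR H hHall
      map_one' := by simp
      map_mul' := fun e f => by
        have := congrArg Subtype.val (hpow e f)
        simpa using this }
  have hψ : ∀ e : E, ψ e = (e : G) ^ hallR H hHall := fun e => rfl
  let ψ' : E →* ψ.range := ψ.rangeRestrict
  have hψ's : Function.Surjective ψ' := ψ.rangeRestrict_surjective
  obtain ⟨c, hc1, hc2, j, hj⟩ := hE
  have hR : IsElementary p ψ.range := by
    refine ⟨ψ' c, ?_, ?_, ?_⟩
    · rw [Subgroup.mem_center_iff]
      intro z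
      obtain ⟨e, rfl⟩ := hψ's z
      rw [← map_mul, ← map_mul, (Subgroup.mem_center_iff.mp hc1) e]
    · exact Nat.Coprime.coprime_dvd_left (orderOf_map_dvd ψ' c) hc2
    · have h1 : (Subgroup.zpowers (ψ' c)) = (Subgroup.zpowers c).map ψ' := (MonoidHom.map_zpowers ψ' c).symm
      have h2 : (Subgroup.zpowers (ψ' c)).index ∣ p ^ j := by
        rw [h1, ← hj]
        exact Subgroup.index_map_dvd _ hψ's
      obtain ⟨i, -, hi⟩ := (Nat.dvd_prime_pow hp).mp h2
      exact ⟨i, hi⟩
  have hRpi : ∀ z : ψ.range, (z : G) ^ Nat.card H = 1 := by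
    rintro ⟨z, e, rfl⟩
    exact hall_pi_pow H hHall (e : G)
  have hRcop : Nat.Coprime (Nat.card ψ.range) H.index := by
    apply Nat.Coprime.symm
    apply Nat.coprime_of_dvd
    intro q hq hqk hqR
    haveI : Fact q.Prime := ⟨hq⟩
    obtain ⟨z, hz⟩ := exists_prime_orderOf_dvd_card' q hqR
    have h3 : orderOf (z : G) = q := by rw [← hz]; exact Subgroup.orderOf_coe z
    have h4 : q ∣ Nat.card H := by
      rw [← h3]
      exact orderOf_dvd_of_pow_eq_one (hRpi z)
    exact hq.one_lt.ne' (Nat.eq_one_of_dvd_coprimes hHall h4 hqk)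
  have hRdvd : Nat.card ψ.range ∣ Nat.card H := by
    have h3 : Nat.card ψ.range ∣ Nat.card H * H.index := by
      rw [← hall_card]
      exact Subgroup.card_subgroup_dvd_card _
    exact hRcop.dvd_of_dvd_mul_right h3
  obtain ⟨g, hg⟩ := helem _ p hp hR hRdvd
  have hmem : ∀ e : E, g * (e : G) ^ hallR H hHall * g⁻¹ ∈ H := by
    intro e
    exact hg ⟨(e : G) ^ hallR H hHall, ⟨e, rfl⟩, by simp⟩
  let Fh : E →* H :=
    { toFun := fun e => ⟨g * (e : G) ^ hallR H hHall * g⁻¹, hmem e⟩
      map_one' := by
        apply Subtype.ext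
        simp
      map_mul' := fun e f => by
        apply Subtype.ext
        have := congrArg Subtype.val (hpow e f)
        simp only [Subgroup.coe_mul, SubgroupClass.coe_pow] at this ⊢
        rw [this]
        group }
  have heq : (fun e : E => hatFn H hHall θ e) = θ ∘ Fh := by
    funext e
    apply hatFn_eq H hHall hfus hθ
    exact (isConj_iff.mpr ⟨g, rfl⟩ : IsConj ((e : G) ^ hallR H hHall) (g * (e : G) ^ hallR H hHall * g⁻¹)).symm
  rw [heq]
  exact IsCharacter.comp Fh hθc

include hHall hfus helem in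
/-- The extension of an irreducible character is an irreducible character. -/
theorem hatFn_isIrr {θ : H → ℂ} (hθi : IsIrrCharacter H θ) : IsIrrCharacter G (hatFn H hHall θ) := by
  classical
  have hθc := IsIrrCharacter.isCharacter hθi
  have hθ : ∀ (h x : H), θ (h * x * h⁻¹) = θ x := by
    intro h x
    have := IsCharacter.isClassFunction hθc x h
    simpa using this
  have hone : hatFn H hHall θ 1 = θ 1 := by
    apply hatFn_eq H hHall hfus hθ
    simp
  apply isIrr_of_generalized_norm_one
  · apply isGeneralized_of_elementary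
    · intro g s
      exact hatFn_conj H hHall hfus hθ s g
    · intro E p hp hE
      exact IsGeneralizedCharacter.of_isCharacter (hatFn_restrict_isCharacter H hHall hfus helem hθc E p hp hE)
  · rw [classInner_hatFn H hHall hfus helem hθ hθ]
    exact classInner_irr_self hθi
  · rw [hone, map_one_eq_charDegree hθc]
    have := charDegree_pos_of_irr hθi
    simpa using this

include hHall hfus helem in
/-- **Existence of a normal complement.** -/
theorem hall_normal_complement : ∃ K : Subgroup G, K.Normal ∧ K ⊔ H = ⊤ ∧ K ⊓ H = ⊥ := by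
  classical
  have hker : ∀ θ : IrrCharacter H, ∃ K : Subgroup G, K.Normal ∧
      ∀ g, g ∈ K ↔ hatFn H hHall (θ : H → ℂ) g = hatFn H hHall (θ : H → ℂ) 1 := fun θ =>
    Cfsg.Agent.Lib.FrobThm.exists_ker (IsIrrCharacter.isCharacter (hatFn_isIrr H hHall hfus helem θ.2))
  choose K hKn hK using hker
  let N : Subgroup G := ⨅ θ, K θ
  have hNn : N.Normal := by
    refine ⟨fun n hn g => ?_⟩
    rw [Subgroup.mem_iInf] at hn ⊢
    intro θ
    exact (hKn θ).conj_mem n (hn θ) g
  have hcl : ∀ θ : IrrCharacter H, ∀ (h x : H), (θ : H → ℂ) (h * x * h⁻¹) = (θ : H → ℂ) x := by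
    intro θ h x
    have := IsCharacter.isClassFunction (IsIrrCharacter.isCharacter θ.2) x h
    simpa using this
  have hN : ∀ g : G, g ∈ N ↔ g ^ H.index = 1 := by
    intro g
    have hone : ∀ θ : IrrCharacter H, hatFn H hHall (θ : H → ℂ) 1 = (θ : H → ℂ) 1 := by
      intro θ
      apply hatFn_eq H hHall hfus (hcl θ)
      simp
    obtain ⟨s, hs⟩ := exists_conj_mem H helem (hall_pi_pow H hHall g)
    let u : H := ⟨s * g ^ hallR H hHall * s⁻¹, hs⟩
    have hu : IsConj (u : G) (g ^ hallR H hHall) :=
      (isConj_iff.mpr ⟨s, rfl⟩ : IsConj (g ^ hallR H hHall) (s * g ^ hallR H hHall * s⁻¹)).symm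
    simp only [N, Subgroup.mem_iInf, hK]
    constructor
    · intro hall
      have h1 : ∀ θ : IrrCharacter H, (θ : H → ℂ) u = (θ : H → ℂ) 1 := by
        intro θ
        rw [← hatFn_eq H hHall hfus (hcl θ) hu, hall θ, hone]
      have h2 := (isConj_iff_forall_irr _ _).mpr h1
      have h3 : u = 1 := isConj_one_right.mp h2.symm
      have h4 : g ^ hallR H hHall = 1 := by
        have h5 : s * g ^ hallR H hHall * s⁻¹ = 1 := congrArg Subtype.val h3
        have h6 : g ^ hallR H hHall = s⁻¹ * (s * g ^ hallR H hHall * s⁻¹) * s := by group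
        rw [h6, h5]
        group
      have h5 := hall_pi_mul H hHall g
      rw [h4, one_mul] at h5
      rw [← h5]
      exact hall_pp_pow H hHall g
    · intro hg θ
      have h1 := hall_r_of_pp H hHall hg
      rw [hone]
      apply hatFn_eq H hHall hfus (hcl θ)
      rw [h1]
      simp
  have hNcard : Nat.card N = H.index := by
    have h1 := ppSet_card_eq H hHall hfus helem 1
    have h2 : ccPrime H ((1 : H) : G) = H.index := by
      simp only [ccPrime, Subgroup.coe_one]
      have h3 : Subgroup.centralizer ({(1 : G)} : Set G) = ⊤ := by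
        ext x
        simp [Subgroup.mem_centralizer_singleton_iff]
      rw [h3, Subgroup.card_top, hall_card H]
      exact Nat.gcd_mul_left_left _ _
    rw [h2] at h1
    rw [← h1, Nat.card_eq_fintype_card, Fintype.card_subtype]
    congr 1
    ext x
    simp [ppSet, hN]
  have hcompl : Subgroup.IsComplement' N H := by
    apply Subgroup.isComplement'_of_coprime
    · rw [hNcard, mul_comm]
      exact (hall_card H).symm
    · rw [hNcard]
      exact hHall.symm
  refine ⟨N, hNn, hcompl.sup_eq_top, ?_⟩
  exact hcompl.disjoint.eq_bot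

end Hall

end Cfsg.Agent.Lib.Char
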