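import Cfsg.Agent.Lib.CharExtra.PReg
import Cfsg.Agent.Lib.CharExtra.Central
import Cfsg.Agent.Lib.Char.DetExt

/-!
# Section functions as algebraic-integer combinations of irreducible characters.

If `|G| = m n` with `m, n` coprime and the order of `g` is coprime to `m`, the function equal to
`n` on the elements whose `m'`-part is conjugate to `g` and to `0` elsewhere is a combination of
irreducible characters with algebraic-integer coefficients.
-/

set_option autoImplicit false
set_option linter.unusedSectionVars false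
set_option linter.unusedVariables false

open scoped ComplexConjugate

namespace Cfsg.Agent.Lib.Char

open Cfsg Cfsg.Agent.Lib.CharExtra

universe u

section Reg

variable {G : Type u} [Group G] [Fintype G]

theorem isGeneralized_prod_regFn (s : Finset ℕ) (hs : ∀ q ∈ s, q.Prime) :
    IsGeneralizedCharacter G (∏ q ∈ s, regFn q G) := by
  classical
  induction s using Finset.induction_on with
  | empty =>
    have := IsGeneralizedCharacter.of_isCharacter (IsCharacter.one (G := G))
    rw [Finset.prod_empty]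
    exact this
  | insert a s ha ih =>
    rw [Finset.prod_insert ha]
    haveI : Fact a.Prime := ⟨hs a (Finset.mem_insert_self a s)⟩
    exact IsGeneralizedCharacter.mul isGeneralized_regFn
      (ih fun q hq => hs q (Finset.mem_insert_of_mem hq))

/-- The part of the order of `G` belonging to the primes dividing `n`. -/
noncomputable def regNum (n : ℕ) (G : Type u) [Group G] : ℕ :=
  ∏ q ∈ n.primeFactors, q ^ (Nat.card G).factorization q

theorem regNum_ne_zero (n : ℕ) : regNum n G ≠ 0 := by
  refine Finset.prod_ne_zero_iff.mpr fun q hq => ?_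
  exact pow_ne_zero _ (Nat.prime_of_mem_primeFactors hq).ne_zero

theorem prod_regFn_apply {n : ℕ} (hn : n ≠ 0) (x : G) :
    (∏ q ∈ n.primeFactors, regFn q G) x =
      if Nat.Coprime (orderOf x) n then (regNum n G : ℂ) else 0 := by
  classical
  rw [Finset.prod_apply]
  split_ifs with h
  · simp only [regNum, Nat.cast_prod]
    refine Finset.prod_congr rfl fun q hq => ?_
    have hq' : ¬ q ∣ orderOf x := by
      intro hd
      have hp := Nat.prime_of_mem_primeFactors hq
      have := Nat.dvd_gcd hd (Nat.dvd_of_mem_primeFactors hq)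
      rw [h.gcd_eq_one] at this
      exact hp.one_lt.ne' (Nat.dvd_one.mp this)
    simp only [regFn, if_neg hq']
  · obtain ⟨q, hq, h1, h2⟩ := Nat.Prime.not_coprime_iff_dvd.mp h
    refine Finset.prod_eq_zero (i := q) (Nat.mem_primeFactors.mpr ⟨hq, h2, hn⟩) ?_
    simp only [regFn, if_pos h1]

theorem regNum_dvd {m n : ℕ} (hm : m ≠ 0) (hn : n ≠ 0) (hcop : Nat.Coprime m n)
    (hk : Nat.card G ∣ m * n) : regNum n G ∣ n := by
  have h1 : ∏ q ∈ n.primeFactors, q ^ n.factorization q = n := by
    have := Nat.prod_factorization_pow_eq_self hn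
    rwa [Finsupp.prod, Nat.support_factorization] at this
  refine dvd_trans ?_ (dvd_of_eq h1)
  refine Finset.prod_dvd_prod_of_dvd _ _ fun q hq => ?_
  refine pow_dvd_pow _ ?_
  have hp := Nat.prime_of_mem_primeFactors hq
  have hqn := Nat.dvd_of_mem_primeFactors hq
  have hqm : ¬ q ∣ m := by
    intro hd
    have := Nat.dvd_gcd hd hqn
    rw [hcop.gcd_eq_one] at this
    exact hp.one_lt.ne' (Nat.dvd_one.mp this)
  have h2 := (Nat.factorization_le_iff_dvd Nat.card_pos.ne' (mul_ne_zero hm hn)).mpr hk q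
  rw [Nat.factorization_mul hm hn, Finsupp.add_apply,
    Nat.factorization_eq_zero_of_not_dvd hqm, zero_add] at h2
  exact h2

end Reg

theorem commuting_factor_unique {G : Type*} [Group G] {a b a' b' : G} {m n : ℕ}
    (hcop : Nat.Coprime m n) (h : a * b = a' * b') (hc : Commute a b) (hc' : Commute a' b')
    (ha : a ^ m = 1) (ha' : a' ^ m = 1) (hb : b ^ n = 1) (hb' : b' ^ n = 1) : b = b' := by
  obtain ⟨r, hr1, hr2⟩ := Nat.chineseRemainder hcop 0 1
  have key : ∀ x y : G, Commute x y → x ^ m = 1 → y ^ n = 1 → (x * y) ^ r = y := by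
    intro x y hxy hx hy
    rw [hxy.mul_pow, pow_eq_pow_of_modEq hx hr1, pow_eq_pow_of_modEq hy hr2]
    simp
  rw [← key a b hc ha hb, h, key a' b' hc' ha' hb']

theorem orderOf_conj_eq {G : Type*} [Group G] (t a : G) : orderOf (t * a * t⁻¹) = orderOf a := by
  rw [← MulAut.conj_apply]
  exact MulEquiv.orderOf_eq _ a

section Main

variable {G : Type u} [Group G] [Fintype G]

/-- The induced section function. -/
theorem section_expansion (m n : ℕ) (hmn : Nat.card G = m * n) (hcop : Nat.Coprime m n) (g : G)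
    (hg : Nat.Coprime (orderOf g) m) (ϑ : G → ℂ)
    (hϑ1 : ∀ x : G, (∃ v : G, IsConj v g ∧ (∃ u : G, x = u * v ∧ Commute u v ∧
      Nat.Coprime (orderOf u) n ∧ Nat.Coprime (orderOf v) m)) → ϑ x = n)
    (hϑ0 : ∀ x : G, (¬ ∃ v : G, IsConj v g ∧ (∃ u : G, x = u * v ∧ Commute u v ∧
      Nat.Coprime (orderOf u) n ∧ Nat.Coprime (orderOf v) m)) → ϑ x = 0) :
    ∃ c : IrrCharacter G → ℂ, (∀ χ, c χ ∈ AlgInt) ∧ ϑ = ∑ χ : IrrCharacter G, c χ • (χ : G → ℂ) := by
  classical
  have hmn0 : m * n ≠ 0 := by rw [← hmn]; exact Nat.card_pos.ne'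
  have hm0 : m ≠ 0 := left_ne_zero_of_mul hmn0
  have hn0 : n ≠ 0 := right_ne_zero_of_mul hmn0
  set C : Subgroup G := Subgroup.centralizer ({g} : Set G) with hC
  have hmemC : ∀ a : G, a ∈ C ↔ a * g = g * a := fun a => Subgroup.mem_centralizer_singleton_iff
  haveI : Fintype C := Fintype.ofFinite C
  let g' : C := ⟨g, (hmemC g).mpr rfl⟩
  have hg'c : g'⁻¹ ∈ Subgroup.center C := by
    refine Subgroup.inv_mem _ (Subgroup.mem_center_iff.mpr fun z => ?_)
    apply Subtype.ext
    show (z : G) * g = g * z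
    exact (hmemC z).mp z.2
  set s := n.primeFactors with hs
  set ξ : C → ℂ := ∏ q ∈ s, regFn q C with hξ
  have hξgen : IsGeneralizedCharacter C ξ :=
    isGeneralized_prod_regFn s fun q hq => Nat.prime_of_mem_primeFactors hq
  have hξval : ∀ y : C, ξ y = if Nat.Coprime (orderOf (y : G)) n then (regNum n C : ℂ) else 0 := by
    intro y
    rw [hξ, hs, prod_regFn_apply hn0 y, Subgroup.orderOf_coe]
  let θ : C → ℂ := fun y => ξ (y * g'⁻¹)
  have hordm : ∀ z : G, Nat.Coprime (orderOf z) n → z ^ m = 1 := by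
    intro z hz
    apply orderOf_dvd_iff_pow_eq_one.mp
    have h1 : orderOf z ∣ m * n := by rw [← hmn]; exact orderOf_dvd_natCard z
    exact hz.dvd_of_dvd_mul_right h1
  have hordn : ∀ z : G, Nat.Coprime (orderOf z) m → z ^ n = 1 := by
    intro z hz
    apply orderOf_dvd_iff_pow_eq_one.mp
    have h1 : orderOf z ∣ m * n := by rw [← hmn]; exact orderOf_dvd_natCard z
    exact hz.dvd_of_dvd_mul_left h1
  -- the values of `θ`
  have hθ0 : ∀ (t x : G), (¬ ∃ v : G, IsConj v g ∧ (∃ u : G, x = u * v ∧ Commute u v ∧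
      Nat.Coprime (orderOf u) n ∧ Nat.Coprime (orderOf v) m)) →
      extendByZero C θ (t⁻¹ * x * t) = 0 := by
    intro t x hx
    by_cases hy : t⁻¹ * x * t ∈ C
    · rw [extendByZero_of_mem C θ hy]
      show ξ _ = 0
      rw [hξval]
      rw [if_neg]
      intro hcopr
      apply hx
      set y : G := t⁻¹ * x * t with hydef
      have hyc : Commute y g := (hmemC y).mp hy
      have hwc : Commute (y * g⁻¹) g := hyc.mul_left (Commute.refl g).inv_left
      refine ⟨t * g * t⁻¹, ?_, t * (y * g⁻¹) * t⁻¹, ?_, ?_, ?_, ?_⟩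
      · exact (isConj_iff.mpr ⟨t, rfl⟩).symm
      · rw [hydef]; group
      · show t * (y * g⁻¹) * t⁻¹ * (t * g * t⁻¹) = t * g * t⁻¹ * (t * (y * g⁻¹) * t⁻¹)
        have h2 : (y * g⁻¹) * g = g * (y * g⁻¹) := hwc
        calc t * (y * g⁻¹) * t⁻¹ * (t * g * t⁻¹) = t * ((y * g⁻¹) * g) * t⁻¹ := by group
          _ = t * (g * (y * g⁻¹)) * t⁻¹ := by rw [h2]
          _ = _ := by group
      · rw [orderOf_conj_eq]
        exact hcopr
      · rw [orderOf_conj_eq]
        exact hg
    · exact extendByZero_of_not_mem C θ hy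
  have hcardC : (Nat.card C : ℂ) ≠ 0 := card_ne_zero_complex C
  have hindθ0 : ∀ x : G, (¬ ∃ v : G, IsConj v g ∧ (∃ u : G, x = u * v ∧ Commute u v ∧
      Nat.Coprime (orderOf u) n ∧ Nat.Coprime (orderOf v) m)) → indFun C θ x = 0 := by
    intro x hx
    rw [indFun_apply, Finset.sum_eq_zero fun t _ => hθ0 t x hx, mul_zero]
  have hindθ1 : ∀ x : G, (∃ v : G, IsConj v g ∧ (∃ u : G, x = u * v ∧ Commute u v ∧
      Nat.Coprime (orderOf u) n ∧ Nat.Coprime (orderOf v) m)) → indFun C θ x = regNum n C := by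
    rintro x ⟨v, hv, u, rfl, hcuv, hu, hvm⟩
    obtain ⟨c, hc⟩ := isConj_iff.mp hv
    have hterm : ∀ t : G, extendByZero C θ (t⁻¹ * (u * v) * t) =
        if c * t ∈ C then (regNum n C : ℂ) else 0 := by
      intro t
      have hconju : Nat.Coprime (orderOf (t⁻¹ * u * t)) n := by
        have := orderOf_conj_eq t⁻¹ u
        rw [inv_inv] at this
        rw [this]; exact hu
      have hconjv : Nat.Coprime (orderOf (t⁻¹ * v * t)) m := by
        have := orderOf_conj_eq t⁻¹ v
        rw [inv_inv] at this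
        rw [this]; exact hvm
      have hsplit : t⁻¹ * (u * v) * t = (t⁻¹ * u * t) * (t⁻¹ * v * t) := by group
      have hcomm : Commute (t⁻¹ * u * t) (t⁻¹ * v * t) := by
        show t⁻¹ * u * t * (t⁻¹ * v * t) = t⁻¹ * v * t * (t⁻¹ * u * t)
        have h2 : u * v = v * u := hcuv
        calc t⁻¹ * u * t * (t⁻¹ * v * t) = t⁻¹ * (u * v) * t := by group
          _ = t⁻¹ * (v * u) * t := by rw [h2]
          _ = _ := by group
      by_cases ht : c * t ∈ C
      · rw [if_pos ht]
        have hz : (c * t) * g = g * (c * t) := (hmemC _).mp ht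
        have htg : t⁻¹ * v * t = g := by
          have h1 : v = c⁻¹ * g * c := by rw [← hc]; group
          rw [h1]
          calc t⁻¹ * (c⁻¹ * g * c) * t = (c * t)⁻¹ * (g * (c * t)) := by group
            _ = (c * t)⁻¹ * ((c * t) * g) := by rw [hz]
            _ = g := by group
        rw [htg] at hsplit hcomm
        have hy : t⁻¹ * (u * v) * t ∈ C := by
          rw [hmemC, hsplit]
          exact hcomm.mul_left (Commute.refl g)
        rw [extendByZero_of_mem C θ hy]
        show ξ _ = _
        rw [hξval, if_pos]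
        have : ((⟨t⁻¹ * (u * v) * t, hy⟩ * g'⁻¹ : C) : G) = t⁻¹ * u * t := by
          show t⁻¹ * (u * v) * t * g⁻¹ = _
          rw [hsplit]
          group
        rw [this]
        exact hconju
      · rw [if_neg ht]
        by_cases hy : t⁻¹ * (u * v) * t ∈ C
        · rw [extendByZero_of_mem C θ hy]
          show ξ _ = _
          rw [hξval, if_neg]
          intro hcopr
          apply ht
          have hval : ((⟨t⁻¹ * (u * v) * t, hy⟩ * g'⁻¹ : C) : G) = t⁻¹ * (u * v) * t * g⁻¹ := rfl
          rw [hval] at hcopr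
          set y : G := t⁻¹ * (u * v) * t with hydef
          have hyc : Commute y g := (hmemC y).mp hy
          have hwc : Commute (y * g⁻¹) g := hyc.mul_left (Commute.refl g).inv_left
          have huniq := commuting_factor_unique hcop
            (a := y * g⁻¹) (b := g) (a' := t⁻¹ * u * t) (b' := t⁻¹ * v * t)
            (by rw [← hsplit]; group) hwc hcomm (hordm _ hcopr) (hordm _ hconju) (hordn _ hg)
            (hordn _ hconjv)
          -- so `c t` centralizes `g`
          rw [hmemC]
          have h1 : v = c⁻¹ * g * c := by rw [← hc]; group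
          rw [h1] at huniq
          have h2 : g * (c * t) = (c * t) * (t⁻¹ * (c⁻¹ * g * c) * t) := by group
          rw [h2, ← huniq]
        · exact extendByZero_of_not_mem C θ hy
    rw [indFun_apply, Finset.sum_congr rfl fun t _ => hterm t]
    have hsum : ∑ t : G, (if c * t ∈ C then (regNum n C : ℂ) else 0) =
        ∑ t : G, (if t ∈ C then (regNum n C : ℂ) else 0) :=
      Equiv.sum_comp (Equiv.mulLeft c) (fun t => if t ∈ C then (regNum n C : ℂ) else 0)
    rw [hsum, Finset.sum_ite, Finset.sum_const_zero, add_zero, Finset.sum_const, nsmul_eq_mul]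
    have hcard : ((Finset.univ.filter (· ∈ C)).card : ℂ) = (Nat.card C : ℂ) := by
      rw [Nat.card_eq_fintype_card, Fintype.card_subtype]
    rw [hcard]
    field_simp
  -- the coefficient
  obtain ⟨k, hk⟩ : regNum n C ∣ n :=
    regNum_dvd hm0 hn0 hcop (by rw [← hmn]; exact Subgroup.card_subgroup_dvd_card C)
  have hR0 : (regNum n C : ℂ) ≠ 0 := by exact_mod_cast regNum_ne_zero n
  have hϑeq : ϑ = (k : ℂ) • indFun C θ := by
    funext x
    simp only [Pi.smul_apply, smul_eq_mul]
    by_cases hx : ∃ v : G, IsConj v g ∧ (∃ u : G, x = u * v ∧ Commute u v ∧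
      Nat.Coprime (orderOf u) n ∧ Nat.Coprime (orderOf v) m)
    · rw [hϑ1 x hx, hindθ1 x hx]
      nth_rw 1 [hk]
      push_cast
      ring
    · rw [hϑ0 x hx, hindθ0 x hx, mul_zero]
  have hcl : IsClassFunction G ϑ := by
    rw [hϑeq]
    intro a b
    simp only [Pi.smul_apply, smul_eq_mul]
    rw [indFun_isClassFunction C θ a b]
  refine ⟨fun χ => classInner ϑ (χ : G → ℂ), ?_, classFunction_eq_sum ϑ hcl⟩
  intro χ
  -- expand `θ`
  obtain ⟨b, hb⟩ := generalized_eq_sum hξgen
  let ω : IrrCharacter C → ℂ := fun μ => (μ : C → ℂ) g'⁻¹ / (μ : C → ℂ) 1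
  have hθexp : θ = ∑ μ : IrrCharacter C, ((b μ : ℂ) * ω μ) • (μ : C → ℂ) := by
    funext y
    show ξ (y * g'⁻¹) = _
    rw [hb]
    simp only [Finset.sum_apply, Pi.smul_apply, smul_eq_mul]
    refine Finset.sum_congr rfl fun μ _ => ?_
    rw [Cfsg.Agent.Lib.CharExtra.irr_mul_central μ hg'c y]
    simp only [ω]
    ring
  have hωint : ∀ μ : IrrCharacter C, ω μ ∈ AlgInt := by
    intro μ
    obtain ⟨lam, hlam⟩ := Cfsg.Agent.Lib.CharExtra.exists_hom_of_central μ (Subgroup.center C) le_rfl
    have h1 : ω μ = (lam ⟨g'⁻¹, hg'c⟩ : ℂ) := (hlam ⟨g'⁻¹, hg'c⟩).symm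
    rw [h1]
    refine root_isIntegral (n := Nat.card (Subgroup.center C)) Nat.card_pos.ne' ?_
    rw [← Units.val_pow_eq_pow_val, ← map_pow]
    have : (⟨g'⁻¹, hg'c⟩ : Subgroup.center C) ^ Nat.card (Subgroup.center C) = 1 :=
      pow_card_eq_one'
    rw [this, map_one, Units.val_one]
  show classInner ϑ (χ : G → ℂ) ∈ AlgInt
  rw [hϑeq, classInner_smul_left, frobenius_reciprocity C θ _
    (IsCharacter.isClassFunction (IsIrrCharacter.isCharacter χ.2)), hθexp, classInner_sum_left]
  refine Subalgebra.mul_mem _ (natCast_mem _ k) (Subalgebra.sum_mem _ fun μ _ => ?_)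
  rw [classInner_smul_left]
  obtain ⟨d, hd⟩ := classInner_isCharacter_nat (IsIrrCharacter.isCharacter μ.2)
    (IsCharacter.restrict C (IsIrrCharacter.isCharacter χ.2))
  rw [hd]
  exact Subalgebra.mul_mem _ (Subalgebra.mul_mem _ (intCast_mem _ _) (hωint μ)) (natCast_mem _ d)

end Main

end Cfsg.Agent.Lib.Char
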