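import Cfsg.Agent.Lib.Char.ZassInvol2
import Cfsg.Agent.Lib.Char.Complete

/-!
# Counting conjugacy classes of a simple Zassenhaus group avoiding the kernel.
-/

set_option autoImplicit false
set_option linter.unusedSectionVars false
set_option linter.unusedVariables false
set_option linter.style.haveILetI false
set_option linter.unusedSimpArgs false
set_option linter.unnecessarySimpa false

open MulAction

namespace Cfsg.Agent.Lib.Char

universe u v

variable {G : Type u} {Ω : Type v} [Group G] [MulAction G Ω]

section invA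

variable [Fintype G]

open Classical in
/-- The number of involutions `x` with `x g` an involution. -/
noncomputable def invA (g : G) : ℕ :=
  (Finset.univ.filter fun x : G => orderOf x = 2 ∧ orderOf (x * g) = 2).card

open Classical in
/-- The set of involutions. -/
noncomputable def invD (G : Type u) [Group G] [Fintype G] : Finset G :=
  Finset.univ.filter fun x : G => orderOf x = 2

theorem invA_one : invA (1 : G) = (invD G).card := by
  classical
  simp [invA, invD]

theorem sum_invA : ∑ g : G, invA g = (invD G).card ^ 2 := by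
  classical
  have h1 : ∀ g : G, invA g = ∑ x ∈ invD G, if orderOf (x * g) = 2 then 1 else 0 := by
    intro g
    simp only [invA, invD]
    rw [Finset.sum_boole]
    simp [Finset.filter_filter]
  simp only [h1]
  rw [Finset.sum_comm]
  have h2 : ∀ x ∈ invD G, (∑ g : G, if orderOf (x * g) = 2 then 1 else 0) = (invD G).card := by
    intro x _
    rw [← Equiv.sum_comp (Equiv.mulLeft x⁻¹)]
    simp only [Equiv.coe_mulLeft, mul_inv_cancel_left]
    rw [invD, Finset.card_filter]
  rw [Finset.sum_congr rfl h2, Finset.sum_const, smul_eq_mul, sq]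

theorem invA_conj (s g : G) : invA (s * g * s⁻¹) = invA g := by
  classical
  simp only [invA]
  refine Finset.card_bij (fun x _ => s⁻¹ * x * s) ?_ ?_ ?_
  · intro x hx
    simp only [Finset.mem_filter, Finset.mem_univ, true_and] at hx ⊢
    constructor
    · have := orderOf_conj_eq_aux s⁻¹ x
      rw [inv_inv] at this
      rw [this]
      exact hx.1
    · have h3 : s⁻¹ * x * s * g = s⁻¹ * (x * (s * g * s⁻¹)) * s⁻¹⁻¹ := by group
      rw [h3, orderOf_conj_eq_aux]
      exact hx.2
  · intro x _ y _ h
    simpa using h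
  · intro y hy
    simp only [Finset.mem_filter, Finset.mem_univ, true_and] at hy
    refine ⟨s * y * s⁻¹, ?_, by group⟩
    simp only [Finset.mem_filter, Finset.mem_univ, true_and]
    constructor
    · rw [orderOf_conj_eq_aux]
      exact hy.1
    · have h3 : s * y * s⁻¹ * (s * g * s⁻¹) = s * (y * g) * s⁻¹ := by group
      rw [h3, orderOf_conj_eq_aux]
      exact hy.2

theorem invA_le (g : G) : invA g ≤ Nat.card (Subgroup.centralizer ({g} : Set G)) := by
  classical
  by_cases hne : (Finset.univ.filter fun x : G => orderOf x = 2 ∧ orderOf (x * g) = 2).Nonempty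
  · obtain ⟨x₀, hx₀⟩ := hne
    simp only [Finset.mem_filter, Finset.mem_univ, true_and] at hx₀
    have hsq : ∀ x : G, orderOf x = 2 → orderOf (x * g) = 2 → x * g = g⁻¹ * x := by
      intro x hx hxg
      have h1 : x ^ 2 = 1 := by rw [← hx]; exact pow_orderOf_eq_one x
      have h2 : (x * g) ^ 2 = 1 := by rw [← hxg]; exact pow_orderOf_eq_one _
      have h3 : x⁻¹ = x := by
        rw [inv_eq_iff_mul_eq_one, ← sq, h1]
      have h4 : x * g * (x * g) = 1 := by rw [← sq, h2]
      have h5 : x * g = (x * g)⁻¹ := eq_inv_of_mul_eq_one_left h4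
      rw [h5]
      simp [h3]
    have hmem : ∀ x : G, orderOf x = 2 → orderOf (x * g) = 2 →
        x₀⁻¹ * x ∈ Subgroup.centralizer ({g} : Set G) := by
      intro x hx hxg
      rw [Subgroup.mem_centralizer_singleton_iff]
      have h1 := hsq x hx hxg
      have h2 := hsq x₀ hx₀.1 hx₀.2
      have h3 : x₀⁻¹ * g⁻¹ = g * x₀⁻¹ := by
        have h4 : g⁻¹ = x₀ * g * x₀⁻¹ := by
          rw [h2]; group
        rw [h4]
        group
      rw [mul_assoc, h1, ← mul_assoc, h3, mul_assoc]
    rw [Nat.card_eq_fintype_card, invA, ← Finset.card_univ]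
    refine Finset.card_le_card_of_injOn
      (fun x => if h : orderOf x = 2 ∧ orderOf (x * g) = 2 then ⟨x₀⁻¹ * x, hmem x h.1 h.2⟩ else 1)
      (fun _ _ => Finset.mem_coe.mpr (Finset.mem_univ _)) ?_
    intro x hx y hy hxy
    have hx' : orderOf x = 2 ∧ orderOf (x * g) = 2 := by simpa using hx
    have hy' : orderOf y = 2 ∧ orderOf (y * g) = 2 := by simpa using hy
    simp only [dif_pos hx', dif_pos hy'] at hxy
    have := congrArg Subtype.val hxy
    simpa using this
  · rw [Finset.not_nonempty_iff_eq_empty] at hne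
    rw [invA, hne, Finset.card_empty]
    exact Nat.zero_le _

/-- Sum of the order of centralizers over a class-closed set. -/
theorem sum_centralizer_classes [Fintype (ConjClasses G)] (P : ConjClasses G → Prop) [DecidablePred P]
    [DecidablePred fun g : G => P (ConjClasses.mk g)] :
    ∑ g ∈ Finset.univ.filter (fun g : G => P (ConjClasses.mk g)),
      Nat.card (Subgroup.centralizer ({g} : Set G)) =
      (Finset.univ.filter P).card * Nat.card G := by
  classical
  rw [Finset.sum_filter, sum_eq_sum_conjClasses, Finset.card_eq_sum_ones, Finset.sum_filter, Finset.sum_mul]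
  refine Finset.sum_congr rfl fun c _ => ?_
  have hc : ConjClasses.mk c.out = c := Quotient.out_eq c
  rw [sum_filter_isConj]
  · by_cases hP : P c
    · have hP' : P (ConjClasses.mk c.out) := by rw [hc]; exact hP
      rw [if_pos hP', if_pos hP, smul_eq_mul, one_mul]
      exact index_mul_card_centralizer c.out
    · have hP' : ¬ P (ConjClasses.mk c.out) := by rw [hc]; exact hP
      rw [if_neg hP', if_neg hP, smul_zero, zero_mul]
  · intro g x
    have h1 : ConjClasses.mk (x * g * x⁻¹) = ConjClasses.mk g := by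
      rw [ConjClasses.mk_eq_mk_iff_isConj]
      exact (isConj_iff.mpr ⟨x, rfl⟩).symm
    simp only [h1]
    rw [card_centralizer_of_isConj (isConj_iff.mpr ⟨x, rfl⟩ : IsConj g (x * g * x⁻¹))]

end invA

variable [Fintype G] [Fintype Ω]

/-- Non-involutions of the kernel have `invA = 0`. -/
theorem invA_kernel_noninvol (hZ : Cfsg.IsZassenhausGroup G Ω) {a b : Ω} (hab : a ≠ b) [IsSimpleGroup G]
    (hodd : Odd (Nat.card (stabilizer G a ⊓ stabilizer G b : Subgroup G)))
    (H : Subgroup G) (hHa : H ≤ stabilizer G a)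
    (hHfix : ∀ u ∈ H, u ≠ 1 → ∀ c : Ω, u • c = c → c = a) {u : G} (hu : u ∈ H) (hu1 : u ≠ 1)
    (hu2 : orderOf u ≠ 2) : invA u = 0 := by
  classical
  simp only [invA]
  rw [Finset.card_eq_zero, Finset.filter_eq_empty_iff]
  rintro x - ⟨hx, hxu⟩
  apply hu2
  have hx2 : x ^ 2 = 1 := by rw [← hx]; exact pow_orderOf_eq_one x
  have hxy : x * (x * u) = u := by
    rw [← mul_assoc, ← sq, hx2, one_mul]
  exact zass_product_invol hZ hab hodd H hHa hHfix hu hu1 hx hxu hxy

/-- For even degree, `invA = 0` on the non-trivial elements of the kernel. -/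
theorem invA_kernel_even (hZ : Cfsg.IsZassenhausGroup G Ω) {a b : Ω} (hab : a ≠ b)
    (hodd : Odd (Nat.card (stabilizer G a ⊓ stabilizer G b : Subgroup G)))
    (hn : Even (Fintype.card Ω))
    (H : Subgroup G) (hHa : H ≤ stabilizer G a)
    (hHfix : ∀ u ∈ H, u ≠ 1 → ∀ c : Ω, u • c = c → c = a) {u : G} (hu : u ∈ H) (hu1 : u ≠ 1) :
    invA u = 0 := by
  classical
  simp only [invA]
  rw [Finset.card_eq_zero, Finset.filter_eq_empty_iff]
  rintro x - ⟨hx, hxu⟩
  have hx2 : x ^ 2 = 1 := by rw [← hx]; exact pow_orderOf_eq_one x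
  have hxy : x * (x * u) = u := by
    rw [← mul_assoc, ← sq, hx2, one_mul]
  obtain ⟨hxa, -⟩ := zass_product_fix H hHa hHfix hu hu1 hx hxu hxy
  have h1 := zass_odd_of_invol_fix hZ hab hodd hx hxa
  exact (Nat.not_even_iff_odd.mpr h1) hn

/-- For an involution of the kernel, `invA = e - 1`. -/
theorem invA_kernel_invol (hZ : Cfsg.IsZassenhausGroup G Ω) {a b : Ω} (hab : a ≠ b) [IsSimpleGroup G]
    (hodd : Odd (Nat.card (stabilizer G a ⊓ stabilizer G b : Subgroup G)))
    (H : Subgroup G) (hHa : H ≤ stabilizer G a)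
    (hHfix : ∀ u ∈ H, u ≠ 1 → ∀ c : Ω, u • c = c → c = a) {u : G} (hu : u ∈ H)
    (hu2 : orderOf u = 2) :
    invA u = Nat.card (stabilizer G a ⊓ stabilizer G b : Subgroup G) - 1 := by
  classical
  have hu1 : u ≠ 1 := by
    rintro rfl
    rw [orderOf_one] at hu2
    omega
  have hua : u • a = a := hHa hu
  have hn := zass_odd_of_invol_fix hZ hab hodd hu2 hua
  rw [← zass_card_invol_fix hZ hab hodd hn, ← Finset.card_erase_of_mem (a := u) (by simp [hu2, hua])]
  simp only [invA]
  congr 1
  ext x
  simp only [Finset.mem_filter, Finset.mem_univ, true_and, Finset.mem_erase]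
  have hu22 : u ^ 2 = 1 := by rw [← hu2]; exact pow_orderOf_eq_one u
  constructor
  · rintro ⟨hx, hxu⟩
    have hx2 : x ^ 2 = 1 := by rw [← hx]; exact pow_orderOf_eq_one x
    have hxy : x * (x * u) = u := by
      rw [← mul_assoc, ← sq, hx2, one_mul]
    obtain ⟨hxa, -⟩ := zass_product_fix H hHa hHfix hu hu1 hx hxu hxy
    refine ⟨?_, hx, hxa⟩
    rintro rfl
    rw [← sq, hu22, orderOf_one] at hxu
    omega
  · rintro ⟨hxne, hx, hxa⟩
    refine ⟨hx, ?_⟩
    have hcomm := zass_invol_commute hZ hab hodd hx hu2 hxa hua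
    have hx2 : x ^ 2 = 1 := by rw [← hx]; exact pow_orderOf_eq_one x
    apply orderOf_eq_prime
    · rw [sq]
      calc x * u * (x * u) = x * (u * x) * u := by group
        _ = x * (x * u) * u := by rw [hcomm]
        _ = x ^ 2 * u ^ 2 := by rw [sq, sq]; group
        _ = 1 := by rw [hx2, hu22, one_mul]
    · intro h
      apply hxne
      have h1 : x = u⁻¹ := eq_inv_of_mul_eq_one_left h
      rw [h1]
      rw [inv_eq_iff_mul_eq_one, ← sq, hu22]

/-- An involution of odd degree is conjugate to one fixing `a`. -/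
theorem exists_conj_invol_fix (hZ : Cfsg.IsZassenhausGroup G Ω) {a b : Ω} (hab : a ≠ b)
    (hodd : Odd (Nat.card (stabilizer G a ⊓ stabilizer G b : Subgroup G)))
    (hn : Odd (Fintype.card Ω)) {g : G} (hg : orderOf g = 2) :
    ∃ s : G, (s⁻¹ * g * s) • a = a := by
  classical
  have h1 := fixN_of_invol_odd hZ hab hodd hg hn
  have h2 : 0 < (Finset.univ.filter fun c : Ω => g • c = c).card := by
    have : fixN G Ω g = (Finset.univ.filter fun c : Ω => g • c = c).card := rfl
    omega
  obtain ⟨c, hc⟩ := Finset.card_pos.mp h2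
  simp only [Finset.mem_filter, Finset.mem_univ, true_and] at hc
  obtain ⟨s, hs⟩ : ∃ s : G, s • a = c := by
    by_cases hap : a = c
    · exact ⟨1, by simp [hap]⟩
    · obtain ⟨g, hg, -⟩ := zass_two_trans hZ a c c a hap (Ne.symm hap)
      exact ⟨g, hg⟩
  refine ⟨s, ?_⟩
  rw [mul_smul, mul_smul, hs, hc, ← hs, inv_smul_smul]

/-- **Counting classes avoiding the kernel.** -/
theorem zass_classes_count (hZ : Cfsg.IsZassenhausGroup G Ω) {a b : Ω} (hab : a ≠ b) [IsSimpleGroup G]
    (hodd : Odd (Nat.card (stabilizer G a ⊓ stabilizer G b : Subgroup G)))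
    (hlt : Nat.card (stabilizer G a ⊓ stabilizer G b : Subgroup G) < Fintype.card Ω - 1)
    (H : Subgroup G) (hHa : H ≤ stabilizer G a) (hHcard : Nat.card H + 1 = Fintype.card Ω)
    (hHfix : ∀ u ∈ H, u ≠ 1 → ∀ c : Ω, u • c = c → c = a) :
    Nat.card (stabilizer G a ⊓ stabilizer G b : Subgroup G) ≤
      Nat.card {C : ConjClasses G // ∀ g : G, ConjClasses.mk g = C → g ∉ H} := by
  classical
  set e := Nat.card (stabilizer G a ⊓ stabilizer G b : Subgroup G) with he
  set n := Fintype.card Ω with hnn
  let P : ConjClasses G → Prop := fun C => ∀ g : G, ConjClasses.mk g = C → g ∉ H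
  have hk : Nat.card {C : ConjClasses G // P C} = (Finset.univ.filter P).card := by
    rw [Nat.card_eq_fintype_card, Fintype.card_subtype]
  change e ≤ Nat.card {C : ConjClasses G // P C}
  rw [hk]
  set k := (Finset.univ.filter P).card with hkdef
  have hG : e * n * (n - 1) = Nat.card G := zass_card hZ hab
  have hpos : 0 < e := Nat.card_pos
  have hsum := sum_invA (G := G)
  rw [← Finset.sum_filter_add_sum_filter_not Finset.univ (fun g : G => P (ConjClasses.mk g))] at hsum
  have hbound : ∑ g ∈ Finset.univ.filter (fun g : G => P (ConjClasses.mk g)), invA g ≤ k * Nat.card G := by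
    rw [hkdef, ← sum_centralizer_classes P]
    exact Finset.sum_le_sum fun g _ => invA_le g
  -- elements outside: conjugates of elements of the kernel
  have hout : ∀ g : G, ¬ P (ConjClasses.mk g) → ∃ (s u : G), u ∈ H ∧ g = s * u * s⁻¹ := by
    intro g hg
    simp only [P, not_forall, not_not] at hg
    obtain ⟨g', hg', hg'H⟩ := hg
    rw [ConjClasses.mk_eq_mk_iff_isConj] at hg'
    obtain ⟨s, hs⟩ := isConj_iff.mp hg'
    exact ⟨s, g', hg'H, hs.symm⟩
  have h1P : ¬ P (ConjClasses.mk (1 : G)) := by
    simp only [P, not_forall, not_not]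
    exact ⟨1, rfl, H.one_mem⟩
  rcases Nat.even_or_odd n with hev | hodn
  · -- even degree
    have hD := zass_card_invol_even hZ hab hodd hev
    rw [Nat.card_eq_fintype_card, Fintype.card_subtype] at hD
    change (invD G).card = _ at hD
    have hrest : ∑ g ∈ Finset.univ.filter (fun g : G => ¬ P (ConjClasses.mk g)), invA g ≤ (invD G).card := by
      rw [← invA_one, ← Finset.sum_singleton invA (1 : G)]
      apply Finset.sum_le_sum_of_ne_zero
      intro g hg hg0
      simp only [Finset.mem_filter, Finset.mem_univ, true_and] at hg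
      obtain ⟨s, u, hu, rfl⟩ := hout g hg
      rw [invA_conj] at hg0
      by_cases hu1 : u = 1
      · simp [hu1]
      · exact absurd (invA_kernel_even hZ hab hodd hev H hHa hHfix hu hu1) hg0
    have h3 : (invD G).card ^ 2 ≤ k * Nat.card G + (invD G).card := by
      rw [← hsum]
      exact Nat.add_le_add hbound hrest
    have hD' : (invD G).card = (n - 1) * e := hD
    rw [hD', ← hG] at h3
    by_contra hcon
    push Not at hcon
    obtain ⟨m, hm⟩ : ∃ m, n = m + 1 := ⟨n - 1, by omega⟩
    rw [hm] at h3 hlt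
    simp only [Nat.add_sub_cancel] at h3 hlt
    -- `(m e)² ≤ k e (m+1) m + m e`
    have hm : 0 < m := by omega
    have h4 : m * e * (m * e) ≤ m * e * (k * (m + 1) + 1) := by
      calc m * e * (m * e) = (m * e) ^ 2 := by ring
        _ ≤ k * (e * (m + 1) * m) + m * e := h3
        _ = m * e * (k * (m + 1) + 1) := by ring
    have h5 : m * e ≤ k * (m + 1) + 1 := Nat.le_of_mul_le_mul_left h4 (Nat.mul_pos hm hpos)
    have h6 : k + 1 ≤ e := hcon
    have h7 : (k + 1) * m ≤ e * m := Nat.mul_le_mul_right _ h6
    nlinarith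
  · -- odd degree
    have hD := zass_card_invol_odd hZ hab hodd hodn
    rw [Nat.card_eq_fintype_card, Fintype.card_subtype] at hD
    change (invD G).card = _ at hD
    have hDval : ∑ g ∈ invD G, invA g = (invD G).card * (e - 1) := by
      rw [Finset.sum_const_nat]
      intro g hg
      simp only [invD, Finset.mem_filter, Finset.mem_univ, true_and] at hg
      obtain ⟨s, hs⟩ := exists_conj_invol_fix hZ hab hodd hodn hg
      have h3 : g = s * (s⁻¹ * g * s) * s⁻¹ := by group
      have h4 : orderOf (s⁻¹ * g * s) = 2 := by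
        have := orderOf_conj_eq_aux s⁻¹ g
        rw [inv_inv] at this
        rw [this, hg]
      rw [h3, invA_conj]
      exact invA_kernel_invol hZ hab hodd H hHa hHfix
        (zass_invol_mem_kernel hZ hab hodd H hHa hHcard hHfix h4 hs) h4
    have hrest : ∑ g ∈ Finset.univ.filter (fun g : G => ¬ P (ConjClasses.mk g)), invA g ≤
        (invD G).card + (invD G).card * (e - 1) := by
      have h1D : (1 : G) ∉ invD G := by
        simp [invD]
      rw [← hDval, ← invA_one, ← Finset.sum_singleton invA (1 : G), ← Finset.sum_union (by simpa using h1D)]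
      apply Finset.sum_le_sum_of_ne_zero
      intro g hg hg0
      simp only [Finset.mem_filter, Finset.mem_univ, true_and] at hg
      obtain ⟨s, u, hu, rfl⟩ := hout g hg
      rw [invA_conj] at hg0
      by_cases hu1 : u = 1
      · simp [hu1]
      · have hu2 : orderOf u = 2 := by
          by_contra hne
          exact hg0 (invA_kernel_noninvol hZ hab hodd H hHa hHfix hu hu1 hne)
        rw [Finset.mem_union]
        right
        simp only [invD, Finset.mem_filter, Finset.mem_univ, true_and]
        rw [orderOf_conj_eq_aux, hu2]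
    have h3 : (invD G).card ^ 2 ≤ k * Nat.card G + ((invD G).card + (invD G).card * (e - 1)) := by
      rw [← hsum]
      exact Nat.add_le_add hbound hrest
    have hD' : (invD G).card = n * e := hD
    rw [hD', ← hG] at h3
    have h6 : n * e + n * e * (e - 1) = n * e * e := by
      obtain ⟨f, hf⟩ : ∃ f, e = f + 1 := ⟨e - 1, by omega⟩
      rw [hf]
      simp only [Nat.add_sub_cancel]
      ring
    rw [h6] at h3
    by_contra hcon
    push Not at hcon
    obtain ⟨m, hm⟩ : ∃ m, n = m + 1 := ⟨n - 1, by omega⟩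
    rw [hm] at h3 hlt
    simp only [Nat.add_sub_cancel] at h3 hlt
    have hm0 : 0 < m := by omega
    have h4 : (m + 1) * e * ((m + 1) * e) ≤ (m + 1) * e * (k * m + e) := by
      calc (m + 1) * e * ((m + 1) * e) = ((m + 1) * e) ^ 2 := by ring
        _ ≤ k * (e * (m + 1) * m) + (m + 1) * e * e := h3
        _ = (m + 1) * e * (k * m + e) := by ring
    have h5 : (m + 1) * e ≤ k * m + e := Nat.le_of_mul_le_mul_left h4 (Nat.mul_pos (by omega) hpos)
    have h7 : (k + 1) * m ≤ e * m := Nat.mul_le_mul_right _ hcon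
    nlinarith

end Cfsg.Agent.Lib.Char
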